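import Mathlib

set_option autoImplicit false

namespace Cfsg.Agent.Lib.Helper26

variable {G : Type*} [Group G]

/-- elementwise commuting subgroups -/
def Cm (H K : Subgroup G) : Prop := ∀ h ∈ H, ∀ k ∈ K, h * k = k * h

lemma Cm.symm {H K : Subgroup G} (h : Cm H K) : Cm K H := fun k hk x hx => (h x hx k hk).symm

lemma cm_iff_le_centralizer {H K : Subgroup G} :
    Cm H K ↔ H ≤ Subgroup.centralizer (K : Set G) := by
  constructor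
  · intro h x hx
    rw [Subgroup.mem_centralizer_iff]
    intro k hk
    exact (h x hx k hk).symm
  · intro h x hx k hk
    exact (Subgroup.mem_centralizer_iff.mp (h hx) k hk).symm

lemma cm_iff_commutator {H K : Subgroup G} : Cm H K ↔ ⁅H, K⁆ = ⊥ := by
  rw [cm_iff_le_centralizer, Subgroup.commutator_eq_bot_iff_le_centralizer]

lemma Cm.sup_left {H H' K : Subgroup G} (h : Cm H K) (h' : Cm H' K) : Cm (H ⊔ H') K := by
  rw [cm_iff_le_centralizer] at *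
  exact sup_le h h'

lemma Cm.sup_right {H K K' : Subgroup G} (h : Cm H K) (h' : Cm H K') : Cm H (K ⊔ K') :=
  (h.symm.sup_left h'.symm).symm

lemma Cm.mono {H K H' K' : Subgroup G} (h : Cm H K) (hH : H' ≤ H) (hK : K' ≤ K) : Cm H' K' :=
  fun x hx k hk => h x (hH hx) k (hK hk)

lemma Cm.commutator_right {H K₁ K₂ : Subgroup G} (h₁ : Cm H K₁) (h₂ : Cm H K₂) :
    Cm H ⁅K₁, K₂⁆ :=
  (h₁.sup_right h₂).mono le_rfl (Subgroup.commutator_le_sup K₁ K₂)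

lemma Cm.commutator_left {H₁ H₂ K : Subgroup G} (h₁ : Cm H₁ K) (h₂ : Cm H₂ K) :
    Cm ⁅H₁, H₂⁆ K :=
  (h₁.symm.commutator_right h₂.symm).symm

lemma Cm.map_conj {H K : Subgroup G} (h : Cm H K) (g : G) :
    Cm (H.map (MulAut.conj g).toMonoidHom) (K.map (MulAut.conj g).toMonoidHom) := by
  rintro _ ⟨x, hx, rfl⟩ _ ⟨y, hy, rfl⟩
  have := h x hx y hy
  simp only [MulEquiv.coe_toMonoidHom, MulAut.conj_apply]
  have e1 : g * x * g⁻¹ * (g * y * g⁻¹) = g * (x * y) * g⁻¹ := by group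
  have e2 : g * y * g⁻¹ * (g * x * g⁻¹) = g * (y * x) * g⁻¹ := by group
  rw [e1, e2, this]

lemma Cm.of_comm (H : Subgroup G) [IsMulCommutative H] : Cm H H :=
  fun _ hx _ hy => setLike_mul_comm hx hy

lemma Cm.le_normalizer {H K : Subgroup G} (h : Cm H K) : H ≤ Subgroup.normalizer (K : Set G) :=
  (cm_iff_le_centralizer.mp h).trans (Subgroup.centralizer_le_normalizer _)

lemma Cm.isMulCommutative {H : Subgroup G} (h : Cm H H) : IsMulCommutative H :=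
  ⟨⟨fun x y => Subtype.ext (h x x.2 y y.2)⟩⟩

lemma Cm.comm_eq_one {H K : Subgroup G} (h : Cm H K) {x y : G} (hx : x ∈ H) (hy : y ∈ K) :
    x * y * x⁻¹ * y⁻¹ = 1 := by
  rw [h x hx y hy]; group

/-- conjugating a commutator `[x, z]` by `y` commuting with `z` -/
lemma conj_comm_left {x y z : G} (hyz : y * z = z * y)
    (hc : (x * z * x⁻¹ * z⁻¹) * (y * x * y⁻¹ * x⁻¹) = (y * x * y⁻¹ * x⁻¹) * (x * z * x⁻¹ * z⁻¹)) :
    y * (x * z * x⁻¹ * z⁻¹) * y⁻¹ =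
      (x * z * x⁻¹ * z⁻¹) * ((y * x * y⁻¹ * x⁻¹) * z * (y * x * y⁻¹ * x⁻¹)⁻¹ * z⁻¹) := by
  have h1 : y * z * y⁻¹ = z := by rw [hyz]; group
  calc y * (x * z * x⁻¹ * z⁻¹) * y⁻¹
      = (y * x * y⁻¹) * (y * z * y⁻¹) * (y * x * y⁻¹)⁻¹ * (y * z * y⁻¹)⁻¹ := by group
    _ = (y * x * y⁻¹) * z * (y * x * y⁻¹)⁻¹ * z⁻¹ := by rw [h1]
    _ = ((y * x * y⁻¹ * x⁻¹) * (x * z * x⁻¹ * z⁻¹)) * z * (y * x * y⁻¹ * x⁻¹)⁻¹ * z⁻¹ := by group
    _ = ((x * z * x⁻¹ * z⁻¹) * (y * x * y⁻¹ * x⁻¹)) * z * (y * x * y⁻¹ * x⁻¹)⁻¹ * z⁻¹ := by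
        rw [hc]
    _ = _ := by group

/-- conjugating a commutator `[x, z]` by `y` commuting with `x` -/
lemma conj_comm_right {x y z : G} (hyx : y * x = x * y)
    (hc : (y * z * y⁻¹ * z⁻¹) * (x * z * x⁻¹ * z⁻¹) = (x * z * x⁻¹ * z⁻¹) * (y * z * y⁻¹ * z⁻¹)) :
    y * (x * z * x⁻¹ * z⁻¹) * y⁻¹ =
      (x * (y * z * y⁻¹ * z⁻¹) * x⁻¹ * (y * z * y⁻¹ * z⁻¹)⁻¹) * (x * z * x⁻¹ * z⁻¹) := by
  have h1 : y * x * y⁻¹ = x := by rw [hyx]; group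
  have hc' : (x * z * x⁻¹ * z⁻¹) * (y * z * y⁻¹ * z⁻¹)⁻¹ =
      (y * z * y⁻¹ * z⁻¹)⁻¹ * (x * z * x⁻¹ * z⁻¹) :=
    (Commute.inv_right (show Commute (x * z * x⁻¹ * z⁻¹) (y * z * y⁻¹ * z⁻¹) from hc.symm)).eq
  calc y * (x * z * x⁻¹ * z⁻¹) * y⁻¹
      = (y * x * y⁻¹) * (y * z * y⁻¹) * (y * x * y⁻¹)⁻¹ * (y * z * y⁻¹)⁻¹ := by group
    _ = x * (y * z * y⁻¹) * x⁻¹ * (y * z * y⁻¹)⁻¹ := by rw [h1]
    _ = x * (y * z * y⁻¹ * z⁻¹) * x⁻¹ * ((x * z * x⁻¹ * z⁻¹) * (y * z * y⁻¹ * z⁻¹)⁻¹) := by group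
    _ = x * (y * z * y⁻¹ * z⁻¹) * x⁻¹ * ((y * z * y⁻¹ * z⁻¹)⁻¹ * (x * z * x⁻¹ * z⁻¹)) := by
        rw [hc']
    _ = _ := by group

/-- commutators of generators lying in a subgroup normalized by the generators: the same holds
for all elements of the generated subgroups -/
lemma comm_mem_closure {N : Subgroup G} {s t : Set G}
    (hs : s ⊆ Subgroup.normalizer (N : Set G)) (ht : t ⊆ Subgroup.normalizer (N : Set G))
    (h : ∀ x ∈ s, ∀ y ∈ t, x * y * x⁻¹ * y⁻¹ ∈ N) :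
    ∀ x ∈ Subgroup.closure s, ∀ y ∈ Subgroup.closure t, x * y * x⁻¹ * y⁻¹ ∈ N := by
  have hsN : Subgroup.closure s ≤ Subgroup.normalizer (N : Set G) := (Subgroup.closure_le _).mpr hs
  have htN : Subgroup.closure t ≤ Subgroup.normalizer (N : Set G) := (Subgroup.closure_le _).mpr ht
  have conj : ∀ {g n : G}, g ∈ Subgroup.normalizer (N : Set G) → n ∈ N → g * n * g⁻¹ ∈ N :=
    fun hg hn => (Subgroup.mem_normalizer_iff.mp hg _).mp hn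
  have step1 : ∀ y ∈ t, ∀ x ∈ Subgroup.closure s, x * y * x⁻¹ * y⁻¹ ∈ N := by
    intro y hy x hx
    have hP : x ∈ Subgroup.normalizer (N : Set G) ∧ x * y * x⁻¹ * y⁻¹ ∈ N := by
      refine Subgroup.closure_induction
        (p := fun x _ => x ∈ Subgroup.normalizer (N : Set G) ∧ x * y * x⁻¹ * y⁻¹ ∈ N)
        ?_ ?_ ?_ ?_ hx
      · intro x hx; exact ⟨hs hx, h x hx y hy⟩
      · refine ⟨Subgroup.one_mem _, ?_⟩
        have e : (1 : G) * y * 1⁻¹ * y⁻¹ = 1 := by group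
        rw [e]; exact N.one_mem
      · rintro x x' _ _ ⟨hxN, hx⟩ ⟨hx'N, hx'⟩
        refine ⟨Subgroup.mul_mem _ hxN hx'N, ?_⟩
        have e : x * x' * y * (x * x')⁻¹ * y⁻¹ =
            (x * (x' * y * x'⁻¹ * y⁻¹) * x⁻¹) * (x * y * x⁻¹ * y⁻¹) := by group
        rw [e]
        exact N.mul_mem (conj hxN hx') hx
      · rintro x _ ⟨hxN, hx⟩
        refine ⟨Subgroup.inv_mem _ hxN, ?_⟩
        have e : x⁻¹ * y * x⁻¹⁻¹ * y⁻¹ = x⁻¹ * (x * y * x⁻¹ * y⁻¹)⁻¹ * x⁻¹⁻¹ := by group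
        rw [e]
        exact conj (Subgroup.inv_mem _ hxN) (N.inv_mem hx)
    exact hP.2
  intro x hx y hy
  have hxN := hsN hx
  have hQ : y ∈ Subgroup.normalizer (N : Set G) ∧ x * y * x⁻¹ * y⁻¹ ∈ N := by
    refine Subgroup.closure_induction
      (p := fun y _ => y ∈ Subgroup.normalizer (N : Set G) ∧ x * y * x⁻¹ * y⁻¹ ∈ N)
      ?_ ?_ ?_ ?_ hy
    · intro y hy; exact ⟨ht hy, step1 y hy x hx⟩
    · refine ⟨Subgroup.one_mem _, ?_⟩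
      have e : x * 1 * x⁻¹ * (1 : G)⁻¹ = 1 := by group
      rw [e]; exact N.one_mem
    · rintro y y' _ _ ⟨hyN, hy⟩ ⟨hy'N, hy'⟩
      refine ⟨Subgroup.mul_mem _ hyN hy'N, ?_⟩
      have e : x * (y * y') * x⁻¹ * (y * y')⁻¹ =
          (x * y * x⁻¹ * y⁻¹) * (y * (x * y' * x⁻¹ * y'⁻¹) * y⁻¹) := by group
      rw [e]
      exact N.mul_mem hy (conj hyN hy')
    · rintro y _ ⟨hyN, hy⟩
      refine ⟨Subgroup.inv_mem _ hyN, ?_⟩
      have e : x * y⁻¹ * x⁻¹ * y⁻¹⁻¹ = y⁻¹ * (x * y * x⁻¹ * y⁻¹)⁻¹ * y⁻¹⁻¹ := by group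
      rw [e]
      exact conj (Subgroup.inv_mem _ hyN) (N.inv_mem hy)
  exact hQ.2

lemma sup_eq_closure_union (H K : Subgroup G) :
    H ⊔ K = Subgroup.closure ((H : Set G) ∪ (K : Set G)) := by
  rw [Subgroup.closure_union, Subgroup.closure_eq, Subgroup.closure_eq]

/-- two-generator version of `comm_mem_closure` for joins of subgroups -/
lemma comm_mem_sup {N H₁ H₂ K₁ K₂ : Subgroup G}
    (hH₁ : H₁ ≤ Subgroup.normalizer (N : Set G)) (hH₂ : H₂ ≤ Subgroup.normalizer (N : Set G))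
    (hK₁ : K₁ ≤ Subgroup.normalizer (N : Set G)) (hK₂ : K₂ ≤ Subgroup.normalizer (N : Set G))
    (h11 : ∀ x ∈ H₁, ∀ y ∈ K₁, x * y * x⁻¹ * y⁻¹ ∈ N)
    (h12 : ∀ x ∈ H₁, ∀ y ∈ K₂, x * y * x⁻¹ * y⁻¹ ∈ N)
    (h21 : ∀ x ∈ H₂, ∀ y ∈ K₁, x * y * x⁻¹ * y⁻¹ ∈ N)
    (h22 : ∀ x ∈ H₂, ∀ y ∈ K₂, x * y * x⁻¹ * y⁻¹ ∈ N) :
    ∀ x ∈ H₁ ⊔ H₂, ∀ y ∈ K₁ ⊔ K₂, x * y * x⁻¹ * y⁻¹ ∈ N := by
  rw [sup_eq_closure_union H₁ H₂, sup_eq_closure_union K₁ K₂]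
  apply comm_mem_closure
  · rintro x (hx | hx)
    · exact hH₁ hx
    · exact hH₂ hx
  · rintro x (hx | hx)
    · exact hK₁ hx
    · exact hK₂ hx
  · rintro x (hx | hx) y (hy | hy)
    · exact h11 x hx y hy
    · exact h12 x hx y hy
    · exact h21 x hx y hy
    · exact h22 x hx y hy

/-- a subgroup `R` normalizes `Z'` when `[Z', R] ≤ Z ≤ Z'` -/
lemma le_normalizer_of_comm_mem {R Z Z' : Subgroup G} (hZ : Z ≤ Z')
    (h : ∀ x ∈ Z', ∀ g ∈ R, x * g * x⁻¹ * g⁻¹ ∈ Z) : R ≤ Subgroup.normalizer (Z' : Set G) := by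
  have key : ∀ g ∈ R, ∀ x ∈ Z', g * x * g⁻¹ ∈ Z' := by
    intro g hg x hx
    have e : g * x * g⁻¹ = (x * g * x⁻¹ * g⁻¹)⁻¹ * x := by group
    rw [e]
    exact Z'.mul_mem (Z'.inv_mem (hZ (h x hx g hg))) hx
  intro g hg
  rw [Subgroup.mem_normalizer_iff]
  intro x
  constructor
  · exact key g hg x
  · intro hx
    have := key g⁻¹ (R.inv_mem hg) _ hx
    have e : g⁻¹ * (g * x * g⁻¹) * g⁻¹⁻¹ = x := by group
    rwa [e] at this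

/-- an ascending central chain of length four inside the ambient group -/
lemma isNilpotent_of_chain4 {R Z₁ Z₂ Z₃ : Subgroup G}
    (h1 : ∀ x ∈ Z₁, ∀ g ∈ R, x * g * x⁻¹ * g⁻¹ = 1)
    (h2 : ∀ x ∈ Z₂, ∀ g ∈ R, x * g * x⁻¹ * g⁻¹ ∈ Z₁)
    (h3 : ∀ x ∈ Z₃, ∀ g ∈ R, x * g * x⁻¹ * g⁻¹ ∈ Z₂)
    (h4 : ∀ x ∈ R, ∀ g ∈ R, x * g * x⁻¹ * g⁻¹ ∈ Z₃) : Group.IsNilpotent ↥R := by
  rw [Subgroup.nilpotent_iff_finite_ascending_central_series]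
  let H : ℕ → Subgroup ↥R := fun i =>
    match i with
    | 0 => ⊥
    | 1 => Z₁.subgroupOf R
    | 2 => Z₂.subgroupOf R
    | 3 => Z₃.subgroupOf R
    | _ => ⊤
  refine ⟨4, H, ⟨rfl, ?_⟩, rfl⟩
  intro x i hx g
  match i, hx with
  | 0, hx =>
    show x * g * x⁻¹ * g⁻¹ ∈ (⊥ : Subgroup ↥R)
    rw [Subgroup.mem_bot]
    exact Subtype.ext (h1 x hx g g.2)
  | 1, hx => exact h2 x hx g g.2
  | 2, hx => exact h3 x hx g g.2
  | 3, _ => exact h4 x x.2 g g.2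
  | (_ + 4), _ => exact Subgroup.mem_top _

lemma comm_mul_right_of_commute {a f c : G} (h : a * c = c * a) :
    a * (f * c) * a⁻¹ * (f * c)⁻¹ = a * f * a⁻¹ * f⁻¹ := by
  have h' : c * a⁻¹ = a⁻¹ * c := (Commute.inv_right (show Commute c a from h.symm)).eq
  calc a * (f * c) * a⁻¹ * (f * c)⁻¹ = a * f * (c * a⁻¹) * c⁻¹ * f⁻¹ := by group
    _ = a * f * (a⁻¹ * c) * c⁻¹ * f⁻¹ := by rw [h']
    _ = a * f * a⁻¹ * f⁻¹ := by group

lemma comm_mul_left_of_commute {e a c : G} (h : a * c = c * a) :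
    (e * a) * c * (e * a)⁻¹ * c⁻¹ = e * c * e⁻¹ * c⁻¹ := by
  calc (e * a) * c * (e * a)⁻¹ * c⁻¹ = e * (a * c) * a⁻¹ * e⁻¹ * c⁻¹ := by group
    _ = e * (c * a) * a⁻¹ * e⁻¹ * c⁻¹ := by rw [h]
    _ = _ := by group

lemma comm_mem_of_mem {H : Subgroup G} {x y : G} (hx : x ∈ H) (hy : y ∈ H) :
    x * y * x⁻¹ * y⁻¹ ∈ H :=
  H.mul_mem (H.mul_mem (H.mul_mem hx hy) (H.inv_mem hx)) (H.inv_mem hy)

lemma comm_inv_mem {N : Subgroup G} {x y : G} (h : y * x * y⁻¹ * x⁻¹ ∈ N) :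
    x * y * x⁻¹ * y⁻¹ ∈ N := by
  have e : x * y * x⁻¹ * y⁻¹ = (y * x * y⁻¹ * x⁻¹)⁻¹ := by group
  rw [e]; exact N.inv_mem h

/-- induction over the join of two subgroups -/
lemma sup_induction {H K : Subgroup G} {p : G → Prop} {x : G} (hx : x ∈ H ⊔ K)
    (hH : ∀ x ∈ H, p x) (hK : ∀ x ∈ K, p x) (one : p 1)
    (mul : ∀ x y, p x → p y → p (x * y)) : p x := by
  rw [sup_eq_iSup] at hx
  refine Subgroup.iSup_induction (fun b : Bool => bif b then H else K) (C := p) hx ?_ one mul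
  rintro (_ | _) y hy
  · exact hK y hy
  · exact hH y hy

/-- in a nilpotent subgroup `R`, subgroups `A`, `C` with `A ≤ [C, R]` and `C ≤ [A, R]` are
trivial -/
lemma eq_bot_of_isNilpotent_of_le_commutator {R A C : Subgroup G} (hnil : Group.IsNilpotent ↥R)
    (hA : A ≤ R) (hC : C ≤ R) (hAC : A ≤ ⁅C, R⁆) (hCA : C ≤ ⁅A, R⁆) : A = ⊥ := by
  obtain ⟨n, hn⟩ := (Subgroup.isNilpotent_iff_lowerCentralSeries R).mp hnil
  have key : ∀ k, A ≤ R.lowerCentralSeries k ∧ C ≤ R.lowerCentralSeries k := by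
    intro k
    induction k with
    | zero => exact ⟨hA, hC⟩
    | succ k ih =>
      rw [Subgroup.lowerCentralSeries_succ]
      exact ⟨hAC.trans (Subgroup.commutator_mono ih.2 le_rfl),
        hCA.trans (Subgroup.commutator_mono ih.1 le_rfl)⟩
  have h := (key n).1
  rw [hn] at h
  exact eq_bot_iff.mpr h

end Cfsg.Agent.Lib.Helper26
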