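import Mathlib

set_option autoImplicit false

/-!
# Coprime automorphisms of abelian groups: fixed points and commutators
-/

namespace Cfsg.Agent.Lib.Helper26

/-- an automorphism of order dividing `n` of a finite abelian group of order prime to `n`:
fixed points meet commutators trivially, and every element is a fixed point times a
commutator -/
theorem coprime_fix_decomp {A : Type*} [Group A] [Finite A] (hcomm : ∀ a b : A, a * b = b * a)
    (α : A ≃* A) (n : ℕ) (hn : ∀ a, (α ^ n) a = a) (hcop : (Nat.card A).Coprime n) :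
    (∀ c u : A, α c = c → c = α u * u⁻¹ → c = 1) ∧
    (∀ v : A, ∃ c u : A, α c = c ∧ v = c * (α u * u⁻¹)) := by
  let _ : CommGroup A := { (inferInstance : Group A) with mul_comm := hcomm }
  have h2 : ∀ c u : A, α c = c → c = α u * u⁻¹ → c = 1 := by
    intro c u hc hcu
    have h1 : ∀ i : ℕ, (α ^ i) c = c := by
      intro i
      induction i with
      | zero => rfl
      | succ k ih => rw [pow_succ, MulAut.mul_apply, hc, ih]
    have h3 : c ^ n = 1 := by
      have e1 : ∏ i ∈ Finset.range n, (α ^ i) c = c ^ n := by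
        rw [Finset.prod_congr rfl (fun i _ => h1 i), Finset.prod_const, Finset.card_range]
      rw [← e1]
      have h4 : ∀ i, (α ^ i) c = (α ^ (i + 1)) u / (α ^ i) u := by
        intro i
        rw [hcu, map_mul, map_inv, pow_succ, MulAut.mul_apply, div_eq_mul_inv]
      rw [Finset.prod_congr rfl (fun i _ => h4 i), Finset.prod_range_div (fun i => (α ^ i) u),
        hn u]
      simp
    have h5 : orderOf c ∣ n := orderOf_dvd_of_pow_eq_one h3
    have h6 : orderOf c ∣ Nat.card A := orderOf_dvd_natCard c
    have h7 := Nat.dvd_gcd h6 h5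
    rw [hcop.gcd_eq_one, Nat.dvd_one] at h7
    exact orderOf_eq_one_iff.mp h7
  refine ⟨h2, ?_⟩
  let φ : A →* A :=
    { toFun := fun u => α u * u⁻¹
      map_one' := by simp
      map_mul' := by
        intro a b
        rw [map_mul, mul_inv_rev]
        calc α a * α b * (b⁻¹ * a⁻¹) = α a * (α b * b⁻¹) * a⁻¹ := by group
          _ = α a * a⁻¹ * (α b * b⁻¹) := by
            rw [mul_assoc, mul_comm (α b * b⁻¹) a⁻¹, ← mul_assoc] }
  have hφ : ∀ u, φ u = α u * u⁻¹ := fun u => rfl
  have hdisj : Disjoint φ.ker φ.range := by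
    rw [Subgroup.disjoint_def]
    intro c hc1 hc2
    obtain ⟨u, hu⟩ := hc2
    have hc : α c = c := by
      have := MonoidHom.mem_ker.mp hc1
      rw [hφ] at this
      exact mul_inv_eq_one.mp this
    exact h2 c u hc (by rw [← hu, hφ])
  have hcard : Nat.card φ.ker * Nat.card φ.range = Nat.card A := by
    have e := QuotientGroup.quotientKerEquivRange φ
    rw [← Nat.card_congr e.toEquiv, mul_comm]
    exact (Subgroup.card_eq_card_quotient_mul_card_subgroup φ.ker).symm
  have hcompl := Subgroup.isComplement'_of_card_mul_and_disjoint hcard hdisj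
  intro v
  obtain ⟨⟨⟨c, hc⟩, ⟨w, u, hu⟩⟩, hcw⟩ := hcompl.2 v
  refine ⟨c, u, ?_, ?_⟩
  · have := MonoidHom.mem_ker.mp hc
    rw [hφ] at this
    exact mul_inv_eq_one.mp this
  · rw [← hcw, ← hφ, hu]

end Cfsg.Agent.Lib.Helper26
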