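import Cfsg.Agent.S5092
import Cfsg.Agent.Lib.Helper27.SubgroupFusion
import Cfsg.Agent.Lib.Helper27.NormalSub
import Cfsg.Agent.Lib.Helper18.Basic
import Cfsg.Agent.Lib.Helper18.PIndex

set_option autoImplicit false
open Cfsg Cfsg.FusionSystem
open scoped commutatorElement

namespace Cfsg.Agent.Lib.Helper26

section

variable {G : Type*} [Group G] [Finite G] {p : ℕ} [Fact p.Prime]

/-- The hyperfocal subgroup of `F_S(G)` lies in `S ∩ O^p(G)`. -/
theorem hyperfocal_le (S : Sylow p G) :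
    (groupFusionSystem (S : Subgroup G)).hyperfocalSubgroup p ≤
      (S : Subgroup G) ⊓ pResidual p G := by
  rw [FusionSystem.hyperfocalSubgroup, Subgroup.closure_le]
  rintro _ ⟨P, α, x, hP, hα, rfl⟩
  refine ⟨Subgroup.mul_mem _ (Subgroup.inv_mem _ (hP x.2)) (hP (Subtype.coe_prop _)), ?_⟩
  let B : Subgroup ↥((groupFusionSystem (S : Subgroup G)).autGroup P) :=
    { carrier := {β | ∀ x : P, (x : G)⁻¹ * (((β : MulAut P) x : P) : G) ∈ pResidual p G}
      mul_mem' := by
        intro β γ hβ hγ x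
        have h1 := hγ x
        have h2 := hβ ((γ : MulAut P) x)
        have h3 : (x : G)⁻¹ * ((((β * γ : ↥((groupFusionSystem (S : Subgroup G)).autGroup P)) :
            MulAut P) x : P) : G) =
            ((x : G)⁻¹ * (((γ : MulAut P) x : P) : G)) *
              ((((γ : MulAut P) x : P) : G)⁻¹ *
                (((β : MulAut P) ((γ : MulAut P) x) : P) : G)) := by
          show (x : G)⁻¹ * (((β : MulAut P) ((γ : MulAut P) x) : P) : G) = _
          group
        rw [h3]
        exact Subgroup.mul_mem _ h1 h2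
      one_mem' := by
        intro x
        show (x : G)⁻¹ * (x : G) ∈ pResidual p G
        rw [inv_mul_cancel]
        exact Subgroup.one_mem _
      inv_mem' := by
        intro β hβ x
        have h1 := hβ ((β : MulAut P)⁻¹ x)
        have h2 : ((β : MulAut P) ((β : MulAut P)⁻¹ x)) = x := by simp
        rw [h2] at h1
        have h3 : (x : G)⁻¹ * ((((β⁻¹ : ↥((groupFusionSystem (S : Subgroup G)).autGroup P)) :
            MulAut P) x : P) : G) =
            ((((β : MulAut P)⁻¹ x : P) : G)⁻¹ * (x : G))⁻¹ := by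
          show (x : G)⁻¹ * (((β : MulAut P)⁻¹ x : P) : G) = _
          group
        rw [h3]
        exact Subgroup.inv_mem _ h1 }
  have hB : pResidual p ↥((groupFusionSystem (S : Subgroup G)).autGroup P) ≤ B := by
    rw [pResidual, Subgroup.closure_le]
    intro β hβ
    have hβ' : (orderOf β).Coprime p := hβ
    have hmem : (β : MulAut P) ∈ autInducedBy ⊤ P :=
      (Cfsg.Agent.Lib.Helper27.groupFS_autGroup hP).le β.2
    obtain ⟨g, -, hgN, hg⟩ := Cfsg.Agent.Lib.Helper27.mem_autInducedBy_iff.1 hmem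
    have hβeq : (β : MulAut P) = P.normalizerMonoidHom ⟨g, hgN⟩ := by
      ext y
      exact hg y
    obtain ⟨n, hn⟩ := Cfsg.Agent.Lib.Helper18.exists_pow_mem_pResidual (p := p) g
    have hco : (p ^ n).Coprime (orderOf (β : MulAut P)) := by
      rw [Subgroup.orderOf_coe]
      exact (Nat.Coprime.pow_right n hβ').symm
    obtain ⟨j, hj⟩ := exists_pow_eq_self_of_coprime hco
    have hβeq2 : (β : MulAut P) =
        P.normalizerMonoidHom ((⟨g, hgN⟩ ^ (p ^ n)) ^ j) := by
      rw [map_pow, map_pow, ← hβeq, hj]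
    intro y
    show (y : G)⁻¹ * (((β : MulAut P) y : P) : G) ∈ pResidual p G
    rw [hβeq2]
    have hh : (g ^ (p ^ n)) ^ j ∈ pResidual p G := Subgroup.pow_mem _ hn j
    show (y : G)⁻¹ * ((g ^ (p ^ n)) ^ j * (y : G) * ((g ^ (p ^ n)) ^ j)⁻¹) ∈ pResidual p G
    have h4 : (y : G)⁻¹ * ((g ^ (p ^ n)) ^ j * (y : G) * ((g ^ (p ^ n)) ^ j)⁻¹) =
        ((y : G)⁻¹ * (g ^ (p ^ n)) ^ j * (y : G)⁻¹⁻¹) * ((g ^ (p ^ n)) ^ j)⁻¹ := by group
    rw [h4]
    exact Subgroup.mul_mem _
      ((Cfsg.Agent.Lib.Helper18.pResidual_normal' p G).conj_mem _ hh _) (Subgroup.inv_mem _ hh)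
  exact hB hα x

/-- `S ∩ O^p(G) ≤ hyp(F_S(G)) [S, S]`, by the focal subgroup theorem. -/
theorem sylow_inf_pResidual_le (S : Sylow p G) :
    (S : Subgroup G) ⊓ pResidual p G ≤
      (groupFusionSystem (S : Subgroup G)).hyperfocalSubgroup p ⊔
        ⁅(S : Subgroup G), (S : Subgroup G)⁆ := by
  rw [← Cfsg.Agent.S5092.result p S.2 _ (Cfsg.Agent.Lib.Helper27.groupFS_saturated S)]
  have h1 : pResidual p G ≤ (S : Subgroup G).transferFocal.ker := by
    rw [pResidual, Subgroup.closure_le]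
    intro g hg
    have hg' : (orderOf g).Coprime p := hg
    rw [SetLike.mem_coe, MonoidHom.mem_ker]
    have hp : IsPGroup p (↥(S : Subgroup G) ⧸ (S : Subgroup G).focalSubgroupOf) :=
      S.2.to_quotient _
    obtain ⟨k, hk⟩ := hp ((S : Subgroup G).transferFocal g)
    have h2 : orderOf ((S : Subgroup G).transferFocal g) ∣ p ^ k := orderOf_dvd_of_pow_eq_one hk
    have h3 : orderOf ((S : Subgroup G).transferFocal g) ∣ orderOf g := orderOf_map_dvd _ g
    have h4 : orderOf ((S : Subgroup G).transferFocal g) ∣ Nat.gcd (orderOf g) (p ^ k) :=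
      Nat.dvd_gcd h3 h2
    rw [Nat.Coprime.pow_right k hg', Nat.dvd_one] at h4
    exact orderOf_eq_one_iff.mp h4
  have h2 : (S : Subgroup G) ⊓ pResidual p G ≤ Subgroup.focalSubgroup (S : Subgroup G) := by
    rw [← Subgroup.ker_transferFocal_inf_eq_focalSubgroup S, inf_comm]
    exact inf_le_inf_right _ h1
  refine h2.trans ?_
  rw [Subgroup.focalSubgroup_def, Subgroup.closure_le]
  rintro g ⟨hgS, x, hxS, u, rfl⟩
  have hux : u * x * u⁻¹ ∈ (S : Subgroup G) := by
    have h3 : u * x * u⁻¹ = ⁅x, u⁆⁻¹ * x := by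
      rw [commutatorElement_def]
      group
    rw [h3]
    exact Subgroup.mul_mem _ (Subgroup.inv_mem _ hgS) hxS
  have hle : Subgroup.zpowers x ≤ (S : Subgroup G).comap (MulAut.conj u).toMonoidHom := by
    rw [Subgroup.zpowers_le]
    exact hux
  apply Subgroup.subset_closure
  refine ⟨Subgroup.zpowers x, conjHom (Subgroup.zpowers x) u,
    ⟨x⁻¹, Subgroup.inv_mem _ (Subgroup.mem_zpowers x)⟩, ?_, ?_⟩
  · refine ⟨(Subgroup.zpowers_le).mpr hxS, fun y => hle y.2, u, fun y => rfl⟩
  · show ⁅x, u⁆ = (x⁻¹)⁻¹ * (u * x⁻¹ * u⁻¹)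
    rw [commutatorElement_def]
    group

/-- `O^p(O^p(G)) = O^p(G)`. -/
theorem pResidual_pResidual (p : ℕ) (G : Type*) [Group G] :
    pResidual p ↥(pResidual p G) = ⊤ := by
  have hle : pResidual p G ≤
      (pResidual p ↥(pResidual p G)).map (pResidual p G).subtype := by
    show Subgroup.closure {g : G | Nat.Coprime (orderOf g) p} ≤ _
    rw [Subgroup.closure_le]
    intro z hz
    have hz' : z ∈ pResidual p G := Subgroup.subset_closure hz
    refine ⟨⟨z, hz'⟩, Subgroup.subset_closure ?_, rfl⟩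
    show (orderOf (⟨z, hz'⟩ : ↥(pResidual p G))).Coprime p
    rw [Subgroup.orderOf_mk]
    exact hz
  rw [eq_top_iff]
  rintro ⟨x, hx⟩ -
  obtain ⟨y, hy, hyx⟩ := hle hx
  have : y = ⟨x, hx⟩ := Subtype.ext hyx
  rw [← this]
  exact hy

/-- In a finite `p`-group, a subgroup that together with the commutator subgroup generates the
group is the whole group. -/
theorem eq_top_of_sup_commutator {N : Type*} [Group N] [Finite N] (hN : IsPGroup p N)
    (D : Subgroup N) (h : D ⊔ commutator N = ⊤) : D = ⊤ := by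
  by_contra hD
  obtain ⟨M, hM, hDM⟩ := (eq_top_or_exists_le_coatom D).resolve_left hD
  have hMn := Cfsg.Agent.Lib.Helper18.normal_of_isCoatom hN hM
  have hidx := Cfsg.Agent.Lib.Helper18.index_eq_prime_of_isCoatom hN hM
  have hcomm : commutator N ≤ M := by
    rw [← Subgroup.Normal.quotient_commutative_iff_commutator_le]
    have hcard : Nat.card (N ⧸ M) = p := by rw [← Subgroup.index_eq_card]; exact hidx
    have hcyc : IsCyclic (N ⧸ M) := isCyclic_of_prime_card hcard
    exact ⟨⟨fun a b => (IsCyclic.commGroup (α := N ⧸ M)).mul_comm a b⟩⟩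
  have h2 : D ⊔ commutator N ≤ M := sup_le hDM hcomm
  rw [h] at h2
  exact hM.1 (top_le_iff.mp h2)

end

end Cfsg.Agent.Lib.Helper26
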