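import Mathlib

set_option autoImplicit false

namespace Cfsg.Agent.Lib.Helper26.JordanSet

open scoped Pointwise

/-- `J` is a Jordan set (no size condition): the pointwise stabiliser of the complement of `J`
is transitive on `J`. -/
def IsJ (G : Type*) {Ω : Type*} [Group G] [MulAction G Ω] (J : Set Ω) : Prop :=
  ∀ x ∈ J, ∀ y ∈ J, ∃ g : G, (∀ z ∉ J, g • z = z) ∧ g • x = y

variable {G Ω : Type*} [Group G] [MulAction G Ω]

theorem IsJ.union {J₁ J₂ : Set Ω} (h₁ : IsJ G J₁) (h₂ : IsJ G J₂) (hne : (J₁ ∩ J₂).Nonempty) :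
    IsJ G (J₁ ∪ J₂) := by
  obtain ⟨p, hp₁, hp₂⟩ := hne
  have key : ∀ x ∈ J₁ ∪ J₂, ∃ g : G, (∀ z ∉ J₁ ∪ J₂, g • z = z) ∧ g • x = p := by
    intro x hx
    rcases hx with hx | hx
    · obtain ⟨g, hg, hgx⟩ := h₁ x hx p hp₁
      exact ⟨g, fun z hz => hg z (fun h => hz (Or.inl h)), hgx⟩
    · obtain ⟨g, hg, hgx⟩ := h₂ x hx p hp₂
      exact ⟨g, fun z hz => hg z (fun h => hz (Or.inr h)), hgx⟩
  intro x hx y hy
  obtain ⟨g, hg, hgx⟩ := key x hx
  obtain ⟨k, hk, hky⟩ := key y hy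
  refine ⟨k⁻¹ * g, fun z hz => ?_, ?_⟩
  · rw [mul_smul, hg z hz, inv_smul_eq_iff, hk z hz]
  · rw [mul_smul, hgx, inv_smul_eq_iff, hky]

theorem IsJ.smul {J : Set Ω} (h : IsJ G J) (g : G) : IsJ G (g • J) := by
  intro x hx y hy
  obtain ⟨x₀, hx₀, rfl⟩ := Set.mem_smul_set.mp hx
  obtain ⟨y₀, hy₀, rfl⟩ := Set.mem_smul_set.mp hy
  obtain ⟨k, hk, hkx⟩ := h x₀ hx₀ y₀ hy₀
  refine ⟨g * k * g⁻¹, fun z hz => ?_, ?_⟩
  · have hz' : g⁻¹ • z ∉ J := fun hmem => hz (Set.mem_smul_set.mpr ⟨g⁻¹ • z, hmem, by simp⟩)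
    rw [mul_smul, mul_smul, hk _ hz', smul_inv_smul]
  · simp [mul_smul, hkx]

theorem ncard_smul (g : G) (J : Set Ω) : (g • J).ncard = J.ncard := by
  rw [← Set.image_smul]
  exact Set.ncard_image_of_injective _ (MulAction.injective g)

/-- In a 2-transitive group on a finite set, if there is a Jordan set `Γ` with `1 < |Γ| ≤ n/2`,
then the complement of every pair is a Jordan set (the two-point stabilisers are transitive on
the remaining points). -/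
theorem isJ_pair_compl [Finite Ω]
    (h2 : ∀ a b c d : Ω, a ≠ b → c ≠ d → ∃ g : G, g • a = c ∧ g • b = d)
    (Γ : Set Ω) (hΓ : IsJ G Γ) (h1 : 1 < Γ.ncard) (hn : 2 * Γ.ncard ≤ Nat.card Ω) :
    ∀ a b : Ω, a ≠ b → IsJ G ({a, b}ᶜ : Set Ω) := by
  classical
  have hcompl : ∀ s : Set Ω, s.ncard + sᶜ.ncard = Nat.card Ω :=
    fun s => Set.ncard_add_ncard_compl s
  let 𝒮 : Set (Set Ω) := {J | IsJ G J ∧ 2 ≤ Jᶜ.ncard}
  have hΓS : Γ ∈ 𝒮 := ⟨hΓ, by have := hcompl Γ; omega⟩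
  obtain ⟨C, hCS, hCmax⟩ :=
    Set.Finite.exists_maximalFor (fun J : Set Ω => J.ncard) 𝒮 (Set.toFinite 𝒮) ⟨Γ, hΓS⟩
  have hmax : ∀ J : Set Ω, IsJ G J → 2 ≤ Jᶜ.ncard → J.ncard ≤ C.ncard := by
    intro J hJ hJc
    by_contra hlt
    exact hlt (hCmax (show J ∈ 𝒮 from ⟨hJ, hJc⟩) (by simp only; omega))
  obtain ⟨hC, hCc⟩ := hCS
  have hmC : Γ.ncard ≤ C.ncard := hmax Γ hΓ hΓS.2
  have hkey : ∀ C' : Set Ω, IsJ G C' → C'.ncard = C.ncard → ∀ J : Set Ω, IsJ G J →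
      (J ∩ C').Nonempty → J ⊆ C' ∨ (J ∪ C')ᶜ.ncard ≤ 1 := by
    intro C' hC' hcard J hJ hne
    by_cases hle : (J ∪ C')ᶜ.ncard ≤ 1
    · exact Or.inr hle
    · left
      have hU : IsJ G (J ∪ C') := hJ.union hC' hne
      have h3 := hmax _ hU (by omega)
      have h4 : C' = J ∪ C' :=
        Set.eq_of_subset_of_ncard_le Set.subset_union_right (by omega)
      rw [h4]; exact Set.subset_union_left
  have hsm : ∀ g : G, IsJ G (g • C) ∧ (g • C).ncard = C.ncard ∧ (g • C)ᶜ.ncard = Cᶜ.ncard := by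
    intro g
    refine ⟨hC.smul g, ncard_smul g C, ?_⟩
    rw [← Set.smul_set_compl, ncard_smul]
  by_cases hd : Cᶜ.ncard = 2
  · obtain ⟨α, β, hαβ, hCe⟩ := Set.ncard_eq_two.mp hd
    intro a b hab
    obtain ⟨g, hga, hgb⟩ := h2 α β a b hαβ hab
    have hC2 : C = ({α, β} : Set Ω)ᶜ := by rw [← hCe, compl_compl]
    have : ({a, b}ᶜ : Set Ω) = g • C := by
      rw [hC2, Set.smul_set_compl, ← Set.image_smul, Set.image_pair, hga, hgb]
    rw [this]; exact hC.smul g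
  · exfalso
    have hd3 : 3 ≤ Cᶜ.ncard := by omega
    have hCne : C.Nonempty := by
      rw [← Set.ncard_pos]; omega
    obtain ⟨c, hc⟩ := hCne
    have hCcne : Cᶜ.Nonempty := by rw [← Set.ncard_pos]; omega
    obtain ⟨d0, hd0⟩ := hCcne
    obtain ⟨γ1, γ2, hγ1, hγ2, hγ⟩ := (Set.one_lt_ncard_iff).mp h1
    have hcd0 : c ≠ d0 := fun h => hd0 (h ▸ hc)
    obtain ⟨g, hg1, hg2⟩ := h2 γ1 γ2 c d0 hγ hcd0
    have hSJ : IsJ G (g • Γ) := hΓ.smul g
    have hSm : (g • Γ).ncard = Γ.ncard := ncard_smul g Γ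
    have hcS : c ∈ g • Γ := Set.mem_smul_set.mpr ⟨γ1, hγ1, hg1⟩
    have hd0S : d0 ∈ g • Γ := Set.mem_smul_set.mpr ⟨γ2, hγ2, hg2⟩
    generalize g • Γ = S at hSJ hSm hcS hd0S
    have hSC : (S ∪ C)ᶜ.ncard ≤ 1 := by
      rcases hkey C hC rfl S hSJ ⟨c, hcS, hc⟩ with h | h
      · exact absurd (h hd0S) hd0
      · exact h
    have hsub : Cᶜ ⊆ (Cᶜ ∩ S) ∪ (S ∪ C)ᶜ := by
      intro z hz
      by_cases hzS : z ∈ S
      · exact Or.inl ⟨hz, hzS⟩
      · exact Or.inr (fun h => h.elim hzS hz)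
    have hsub' := (Set.ncard_le_ncard hsub).trans (Set.ncard_union_le _ _)
    have hCS2 : 1 < (Cᶜ ∩ S).ncard := by omega
    obtain ⟨δ1, δ2, hδ1, hδ2, hδ⟩ := (Set.one_lt_ncard_iff).mp hCS2
    have hdm : Cᶜ.ncard ≤ C.ncard := by
      have h5 : (insert c (Cᶜ ∩ S)).ncard ≤ S.ncard :=
        Set.ncard_le_ncard (Set.insert_subset hcS Set.inter_subset_right)
      have h6 : (insert c (Cᶜ ∩ S)).ncard = (Cᶜ ∩ S).ncard + 1 :=
        Set.ncard_insert_of_notMem (fun h => h.1 hc)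
      omega
    have huniq : ∀ C' C'' : Set Ω, IsJ G C' → C'.ncard = C.ncard → C'ᶜ.ncard = Cᶜ.ncard →
        IsJ G C'' → C''.ncard = C.ncard → ∀ x y : Ω, x ≠ y → x ∉ C' → y ∉ C' →
        x ∉ C'' → y ∉ C'' → C'' = C' := by
      intro C' C'' hC' hc' hcc' hC'' hc'' x y hxy hx' hy' hx'' hy''
      by_cases hne : (C'' ∩ C').Nonempty
      · rcases hkey C' hC' hc' C'' hC'' hne with h | h
        · exact Set.eq_of_subset_of_ncard_le h (by omega)
        · exfalso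
          have : 1 < (C'' ∪ C')ᶜ.ncard :=
            (Set.one_lt_ncard_iff).mpr
              ⟨x, y, fun h => h.elim hx'' hx', fun h => h.elim hy'' hy', hxy⟩
          omega
      · exfalso
        have hsub2 : C'' ⊆ C'ᶜ := fun z hz hz' => hne ⟨z, hz, hz'⟩
        have h7 : C'' = C'ᶜ := Set.eq_of_subset_of_ncard_le hsub2 (by omega)
        apply hx''
        rw [h7]; exact hx'
    obtain ⟨e1, e2, he1, he2, he⟩ := (Set.one_lt_ncard_iff).mp (show 1 < Cᶜ.ncard by omega)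
    have hline : ∀ x : Ω, x ≠ c → ∃ C' : Set Ω, IsJ G C' ∧ C'.ncard = C.ncard ∧
        C'ᶜ.ncard = Cᶜ.ncard ∧ c ∉ C' ∧ x ∉ C' := by
      intro x hx
      obtain ⟨k, hk1, hk2⟩ := h2 e1 e2 c x he hx.symm
      obtain ⟨a1, a2, a3⟩ := hsm k
      refine ⟨k • C, a1, a2, a3, ?_, ?_⟩
      · rw [← hk1]; intro hmem; exact he1 ((Set.smul_mem_smul_set_iff).mp hmem)
      · rw [← hk2]; intro hmem; exact he2 ((Set.smul_mem_smul_set_iff).mp hmem)
    choose! Cx hCx using hline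
    have hLS : ∀ x : Ω, x ∉ S → ∀ z : Ω, z ∉ Cx x → z ≠ x → z ∈ S := by
      intro x hxS z hz hzx
      have hxc : x ≠ c := fun h => hxS (h ▸ hcS)
      obtain ⟨b1, b2, b3, b4, b5⟩ := hCx x hxc
      have hne : (S ∩ Cx x).Nonempty := by
        by_contra hemp
        rw [Set.not_nonempty_iff_eq_empty] at hemp
        have hδ1' : δ1 ∉ Cx x := fun h =>
          (Set.eq_empty_iff_forall_notMem.mp hemp δ1) ⟨hδ1.2, h⟩
        have hδ2' : δ2 ∉ Cx x := fun h =>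
          (Set.eq_empty_iff_forall_notMem.mp hemp δ2) ⟨hδ2.2, h⟩
        have h8 := huniq C (Cx x) hC rfl rfl b1 b2 δ1 δ2 hδ hδ1.1 hδ2.1 hδ1' hδ2'
        apply b4
        rw [h8]; exact hc
      rcases hkey (Cx x) b1 b2 S hSJ hne with h | h
      · exact absurd (h hcS) b4
      · by_contra hzS
        have hx_mem : x ∈ (S ∪ Cx x)ᶜ := fun h => h.elim hxS b5
        have hz_mem : z ∈ (S ∪ Cx x)ᶜ := fun h => h.elim hzS hz
        exact hzx ((Set.ncard_le_one_iff).mp h hz_mem hx_mem)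
    have hex : ∀ x : Ω, x ∉ S → ∃ y : Ω, y ∉ Cx x ∧ y ≠ c ∧ y ≠ x := by
      intro x hxS
      have hxc : x ≠ c := fun h => hxS (h ▸ hcS)
      obtain ⟨b1, b2, b3, b4, b5⟩ := hCx x hxc
      have hlt : ({c, x} : Set Ω).ncard < (Cx x)ᶜ.ncard := by
        rw [Set.ncard_pair hxc.symm]; omega
      obtain ⟨y, hy, hy'⟩ := Set.exists_mem_notMem_of_ncard_lt_ncard hlt
      exact ⟨y, hy, fun h => hy' (by simp [h]), fun h => hy' (by simp [h])⟩
    have : Nonempty Ω := ⟨c⟩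
    choose! φ hφ using hex
    have hinj : Sᶜ.ncard ≤ (S \ {c}).ncard := by
      refine Set.ncard_le_ncard_of_injOn φ ?_ ?_
      · intro x hx
        obtain ⟨y1, y2, y3⟩ := hφ x hx
        exact ⟨hLS x hx _ y1 y3, y2⟩
      · intro x hx x' hx' heq
        have hxc : x ≠ c := fun h => hx (h ▸ hcS)
        have hxc' : x' ≠ c := fun h => hx' (h ▸ hcS)
        obtain ⟨b1, b2, b3, b4, b5⟩ := hCx x hxc
        obtain ⟨b1', b2', b3', b4', b5'⟩ := hCx x' hxc'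
        obtain ⟨y1, y2, y3⟩ := hφ x hx
        obtain ⟨y1', y2', y3'⟩ := hφ x' hx'
        have hCeq : Cx x' = Cx x :=
          huniq (Cx x) (Cx x') b1 b2 b3 b1' b2' c (φ x) (Ne.symm y2) b4 y1 b4'
            (by rw [heq]; exact y1')
        by_contra hne
        have : x' ∈ S := hLS x hx x' (by rw [← hCeq]; exact b5') (Ne.symm hne)
        exact hx' this
    have h7 : (S \ {c}).ncard = S.ncard - 1 := Set.ncard_sdiff_singleton_of_mem hcS
    have h8 := hcompl S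
    omega

end Cfsg.Agent.Lib.Helper26.JordanSet
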