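import Mathlib
import Cfsg.Prelude.Def_Blocks
import Cfsg.Agent.Lib.Helper8.BlockAux

set_option autoImplicit false

/-!
Landau's theorem: the order of a finite group is bounded in terms of its number of conjugacy
classes.
-/

namespace Cfsg.Agent.Lib.Helper26

open Cfsg Cfsg.Agent.Lib.Helper2 Cfsg.Agent.Lib.Helper25 Cfsg.Agent.Lib.Helper8

/-- a bound for the denominators in a sum of `k` unit fractions with value `m / D` -/
def landauF : ℕ → ℕ → ℕ
  | 0, _ => 0
  | k + 1, D => max ((k + 1) * D) (landauF k ((k + 1) * D * D))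

theorem landauF_mono : ∀ (k : ℕ) {D D' : ℕ}, D ≤ D' → landauF k D ≤ landauF k D'
  | 0, _, _, _ => le_refl _
  | k + 1, D, D', h => by
      simp only [landauF]
      apply max_le_max
      · exact Nat.mul_le_mul_left _ h
      · apply landauF_mono k
        exact Nat.mul_le_mul (Nat.mul_le_mul_left _ h) h

theorem landau_aux {ι : Type*} [DecidableEq ι] (n : ι → ℕ) :
    ∀ (k : ℕ) (D : ℕ) (s : Finset ι), s.card = k → 0 < D → (∀ i ∈ s, 0 < n i) →
      (∃ m : ℕ, 0 < m ∧ ∑ i ∈ s, (1 : ℚ) / (n i : ℚ) = (m : ℚ) / (D : ℚ)) →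
      ∀ i ∈ s, n i ≤ landauF k D := by
  intro k
  induction k with
  | zero =>
    intro D s hs _ _ _ i hi
    rw [Finset.card_eq_zero] at hs
    rw [hs] at hi
    exact absurd hi (Finset.notMem_empty i)
  | succ k ih =>
    intro D s hs hD hn hm
    obtain ⟨m, hm, hsum⟩ := hm
    have hDq : (0 : ℚ) < D := by exact_mod_cast hD
    have hex : ∃ i₀ ∈ s, n i₀ ≤ (k + 1) * D := by
      by_contra hno
      push Not at hno
      have hne : s.Nonempty := Finset.card_pos.mp (by omega)
      have hlt : ∑ i ∈ s, (1 : ℚ) / (n i : ℚ) < ∑ i ∈ s, (1 : ℚ) / (((k + 1) * D : ℕ) : ℚ) := by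
        apply Finset.sum_lt_sum_of_nonempty hne
        intro i hi
        have h1 := hno i hi
        apply one_div_lt_one_div_of_lt
        · exact_mod_cast Nat.mul_pos (Nat.succ_pos k) hD
        · exact_mod_cast h1
      rw [Finset.sum_const, hs, hsum] at hlt
      have h2 : ((k + 1 : ℕ) • ((1 : ℚ) / (((k + 1) * D : ℕ) : ℚ))) = 1 / (D : ℚ) := by
        rw [nsmul_eq_mul]
        push_cast
        field_simp
      rw [h2] at hlt
      have h3 : (1 : ℚ) / (D : ℚ) ≤ (m : ℚ) / (D : ℚ) := by
        apply div_le_div_of_nonneg_right _ hDq.le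
        exact_mod_cast hm
      exact absurd hlt (not_lt.mpr h3)
    obtain ⟨i₀, hi₀, hle₀⟩ := hex
    intro i hi
    by_cases hii : i = i₀
    · rw [hii]
      simp only [landauF]
      exact le_max_of_le_left hle₀
    · have hi' : i ∈ s.erase i₀ := Finset.mem_erase.mpr ⟨hii, hi⟩
      have hcard : (s.erase i₀).card = k := by
        rw [Finset.card_erase_of_mem hi₀, hs]
        rfl
      have hn0 : 0 < n i₀ := hn i₀ hi₀
      have hnq : (0 : ℚ) < n i₀ := by exact_mod_cast hn0
      have hsum' : ∑ j ∈ s.erase i₀, (1 : ℚ) / (n j : ℚ)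
          = (m : ℚ) / (D : ℚ) - 1 / (n i₀ : ℚ) := by
        rw [← hsum, ← Finset.add_sum_erase s _ hi₀]
        ring
      have hpos : 0 < ∑ j ∈ s.erase i₀, (1 : ℚ) / (n j : ℚ) := by
        apply Finset.sum_pos
        · intro j hj
          have : (0 : ℚ) < n j := by exact_mod_cast hn j (Finset.mem_of_mem_erase hj)
          positivity
        · exact ⟨i, hi'⟩
      have hmn : D < m * n i₀ := by
        rw [hsum'] at hpos
        have h1 : (1 : ℚ) / (n i₀ : ℚ) < (m : ℚ) / (D : ℚ) := by linarith
        rw [div_lt_div_iff₀ hnq hDq] at h1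
        have h2 : (D : ℚ) < (m : ℚ) * (n i₀ : ℚ) := by linarith
        exact_mod_cast h2
      have h4 := ih (D * n i₀) (s.erase i₀) hcard (Nat.mul_pos hD hn0)
        (fun j hj => hn j (Finset.mem_of_mem_erase hj))
        ⟨m * n i₀ - D, by omega, by
          rw [hsum', Nat.cast_sub (le_of_lt hmn)]
          push_cast
          field_simp⟩ i hi'
      calc n i ≤ landauF k (D * n i₀) := h4
        _ ≤ landauF k ((k + 1) * D * D) := by
            apply landauF_mono k
            calc D * n i₀ ≤ D * ((k + 1) * D) := Nat.mul_le_mul_left _ hle₀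
              _ = (k + 1) * D * D := by ring
        _ ≤ landauF (k + 1) D := by
            simp only [landauF]
            exact le_max_right _ _

section grp

variable {G : Type*} [Group G] [Fintype G]

theorem card_le_landau_aux {inst : Fintype (ConjClasses G)}
    (h : (Fintype.card G : ℂ) = ∑ c ∈ @Finset.univ (ConjClasses G) inst,
      ((Subgroup.centralizer ({c.out} : Set G)).index : ℂ)) :
    Nat.card G ≤ landauF (@Fintype.card (ConjClasses G) inst) 1 := by
  classical
  have hN : Fintype.card G = ∑ c ∈ @Finset.univ (ConjClasses G) inst,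
      (Subgroup.centralizer ({c.out} : Set G)).index := by
    exact_mod_cast h
  set n : ConjClasses G → ℕ := fun c => Nat.card (Subgroup.centralizer ({c.out} : Set G))
    with hn
  have hmul : ∀ c : ConjClasses G, n c * (Subgroup.centralizer ({c.out} : Set G)).index
      = Nat.card G := fun c => Subgroup.card_mul_index _
  have hGpos : 0 < Nat.card G := Nat.card_pos
  have hnpos : ∀ c : ConjClasses G, 0 < n c := fun c => Nat.card_pos
  have hGq : (0 : ℚ) < (Nat.card G : ℚ) := by exact_mod_cast hGpos
  have hsum : ∑ c ∈ @Finset.univ (ConjClasses G) inst, (1 : ℚ) / (n c : ℚ)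
      = ((1 : ℕ) : ℚ) / ((1 : ℕ) : ℚ) := by
    have e : ∀ c : ConjClasses G, (1 : ℚ) / (n c : ℚ)
        = ((Subgroup.centralizer ({c.out} : Set G)).index : ℚ) / (Nat.card G : ℚ) := by
      intro c
      have hc : (0 : ℚ) < n c := by exact_mod_cast hnpos c
      rw [div_eq_div_iff hc.ne' hGq.ne', ← hmul c]
      push_cast
      ring
    rw [Finset.sum_congr rfl (fun c _ => e c), ← Finset.sum_div, ← Nat.cast_sum, ← hN,
      Nat.card_eq_fintype_card]
    simp only [Nat.cast_one, div_one]
    apply div_self
    rw [← Nat.card_eq_fintype_card]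
    exact hGq.ne'
  have key := landau_aux n (@Fintype.card (ConjClasses G) inst) 1
    (@Finset.univ (ConjClasses G) inst) rfl Nat.one_pos (fun c _ => hnpos c)
    ⟨1, Nat.one_pos, hsum⟩
  have hout : ∀ c : ConjClasses G, ConjClasses.mk c.out = c := fun c => Quotient.out_eq c
  have h1 : ((ConjClasses.mk (1 : G)).out : G) = 1 :=
    isConj_one_left.mp (ConjClasses.mk_eq_mk_iff_isConj.mp (hout _))
  have h2 := key (ConjClasses.mk (1 : G)) (Finset.mem_univ _)
  have h3 : n (ConjClasses.mk (1 : G)) = Nat.card G := by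
    simp only [hn, h1]
    have e2 : Subgroup.centralizer ({(1 : G)} : Set G) = ⊤ := by
      ext x
      rw [Subgroup.mem_centralizer_singleton_iff]
      simp
    rw [e2, Subgroup.card_top]
  rw [h3] at h2
  exact h2

open Classical in
/-- **Landau.** The order of a finite group is bounded in terms of its class number. -/
theorem card_le_landau : Nat.card G ≤ landauF (Nat.card (ConjClasses G)) 1 := by
  have h := sum_class_fun (fun _ : G => (1 : ℂ)) (fun _ _ => rfl)
  simp only [mul_one, Finset.sum_const, Finset.card_univ, nsmul_eq_mul] at h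
  have key := card_le_landau_aux h
  have e : Nat.card (ConjClasses G) = Fintype.card (ConjClasses G) := Nat.card_eq_fintype_card
  rw [e]
  exact key

end grp

end Cfsg.Agent.Lib.Helper26
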