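import Mathlib
import Cfsg.Prelude.Def_RootSubgroups

set_option autoImplicit false

namespace Cfsg.Agent.Lib.Helper26

open Cfsg

variable {G : Type*} [Group G]

lemma mem_conjBy {A : Subgroup G} {g x : G} : x ∈ conjBy A g ↔ g⁻¹ * x * g ∈ A := by
  constructor
  · rintro ⟨y, hy, rfl⟩
    simpa [MulAut.conj_apply, mul_assoc] using hy
  · intro h
    exact ⟨g⁻¹ * x * g, h, by simp [MulAut.conj_apply, mul_assoc]⟩

lemma conj_mem_conjBy {A : Subgroup G} {g x : G} (hx : x ∈ A) : g * x * g⁻¹ ∈ conjBy A g :=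
  ⟨x, hx, by simp [MulAut.conj_apply]⟩

lemma conjBy_one (A : Subgroup G) : conjBy A 1 = A := by
  ext x; simp

lemma conjBy_conjBy (A : Subgroup G) (g h : G) : conjBy (conjBy A g) h = conjBy A (h * g) := by
  ext x; simp [mul_assoc]

lemma conjBy_inv_conjBy (A : Subgroup G) (g : G) : conjBy (conjBy A g) g⁻¹ = A := by
  rw [conjBy_conjBy]; simp [conjBy_one]

lemma conjBy_conjBy_inv (A : Subgroup G) (g : G) : conjBy (conjBy A g⁻¹) g = A := by
  rw [conjBy_conjBy]; simp [conjBy_one]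

lemma conjBy_eq_iff {A B : Subgroup G} {g : G} : conjBy A g = B ↔ A = conjBy B g⁻¹ := by
  constructor
  · rintro rfl; rw [conjBy_inv_conjBy]
  · rintro rfl; rw [conjBy_conjBy_inv]

lemma conjBy_injective (g : G) : Function.Injective (fun A : Subgroup G => conjBy A g) := by
  intro A B h
  have : conjBy (conjBy A g) g⁻¹ = conjBy (conjBy B g) g⁻¹ := by
    simpa using congrArg (fun C => conjBy C g⁻¹) h
  simpa [conjBy_inv_conjBy] using this

lemma conjBy_sup (A B : Subgroup G) (g : G) : conjBy (A ⊔ B) g = conjBy A g ⊔ conjBy B g :=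
  Subgroup.map_sup A B _

lemma conjBy_of_mem {A : Subgroup G} {g : G} (hg : g ∈ A) : conjBy A g = A := by
  ext x
  rw [mem_conjBy]
  constructor
  · intro h
    have := A.mul_mem (A.mul_mem hg h) (A.inv_mem hg)
    simpa [mul_assoc] using this
  · intro h
    exact A.mul_mem (A.mul_mem (A.inv_mem hg) h) hg

lemma conjBy_le_of_mem {A H : Subgroup G} {g : G} (hA : A ≤ H) (hg : g ∈ H) : conjBy A g ≤ H := by
  rintro x ⟨y, hy, rfl⟩
  simp only [MulEquiv.coe_toMonoidHom, MulAut.conj_apply]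
  exact H.mul_mem (H.mul_mem hg (hA hy)) (H.inv_mem hg)

lemma conjBy_eq_self_iff {A : Subgroup G} {g : G} :
    conjBy A g = A ↔ g ∈ Subgroup.normalizer (A : Set G) := by
  rw [Subgroup.mem_normalizer_iff]
  constructor
  · intro h x
    constructor
    · intro hx
      rw [← h]; exact conj_mem_conjBy hx
    · intro hx
      rw [← h, mem_conjBy] at hx
      simpa [mul_assoc] using hx
  · intro h
    ext x
    rw [mem_conjBy, h (g⁻¹ * x * g)]
    simp [mul_assoc]

lemma conjBy_mono {A B : Subgroup G} (h : A ≤ B) (g : G) : conjBy A g ≤ conjBy B g :=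
  Subgroup.map_mono h

lemma conjBy_ne_bot {A : Subgroup G} (h : A ≠ ⊥) (g : G) : conjBy A g ≠ ⊥ := by
  intro h'
  apply h
  have : A = conjBy (⊥ : Subgroup G) g⁻¹ := conjBy_eq_iff.mp h'
  rw [this]
  ext x; simp

lemma isNilpotent_conjBy {A : Subgroup G} (h : Group.IsNilpotent A) (g : G) :
    Group.IsNilpotent (conjBy A g) :=
  Group.nilpotent_of_mulEquiv
    (A.equivMapOfInjective (MulAut.conj g).toMonoidHom (MulAut.conj g).injective)

section RankOne

variable {A B : Subgroup G}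

lemma RankOne.inf_normalizer_right (h : IsRankOnePair A B) :
    A ⊓ Subgroup.normalizer (B : Set G) = ⊥ := by
  rw [eq_bot_iff]
  rintro x ⟨hxA, hxN⟩
  by_contra hx1
  have hx1' : x ≠ 1 := hx1
  obtain ⟨b, hb, -, hconj⟩ := h.cond_left x hxA hx1'
  have h1 : conjBy B x⁻¹ = B := conjBy_eq_self_iff.mpr (Subgroup.inv_mem _ hxN)
  rw [h1] at hconj
  have h2 : A = conjBy B b := by
    have := conjBy_eq_iff.mp hconj
    simpa using this
  rw [conjBy_of_mem hb] at h2
  exact h.ne h2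

lemma RankOne.inf_normalizer_left (h : IsRankOnePair A B) :
    B ⊓ Subgroup.normalizer (A : Set G) = ⊥ :=
  RankOne.inf_normalizer_right (RankOnePair_symm h)

lemma RankOne.eq_one_of_mem_normalizer (h : IsRankOnePair A B) {a : G} (ha : a ∈ A)
    (hn : a ∈ Subgroup.normalizer (B : Set G)) : a = 1 := by
  have : a ∈ A ⊓ Subgroup.normalizer (B : Set G) := ⟨ha, hn⟩
  rw [RankOne.inf_normalizer_right h] at this
  exact this

lemma RankOne.eq_one_of_mem_normalizer' (h : IsRankOnePair A B) {b : G} (hb : b ∈ B)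
    (hn : b ∈ Subgroup.normalizer (A : Set G)) : b = 1 :=
  RankOne.eq_one_of_mem_normalizer (RankOnePair_symm h) hb hn

lemma RankOne.exists_ne_one_left (h : IsRankOnePair A B) : ∃ a ∈ A, a ≠ 1 := by
  by_contra hA
  push Not at hA
  have hAbot : A = ⊥ := by
    rw [eq_bot_iff]; intro x hx; exact hA x hx
  have hB : ∃ b ∈ B, b ≠ 1 := by
    by_contra hB
    push Not at hB
    have hBbot : B = ⊥ := by
      rw [eq_bot_iff]; intro x hx; exact hB x hx
    exact h.ne (hAbot.trans hBbot.symm)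
  obtain ⟨b, hb, hb1⟩ := hB
  obtain ⟨a, ha, ha1, -⟩ := h.cond_right b hb hb1
  exact ha1 (hA a ha)

lemma RankOne.exists_ne_one_right (h : IsRankOnePair A B) : ∃ b ∈ B, b ≠ 1 :=
  RankOne.exists_ne_one_left (RankOnePair_symm h)

lemma RankOne.right_mem_unipotent (h : IsRankOnePair A B) : B ∈ unipotentSubgroups A B := by
  obtain ⟨a, ha, ha1⟩ := RankOne.exists_ne_one_left h
  obtain ⟨b, hb, -, hconj⟩ := h.cond_left a ha ha1
  refine ⟨a * b⁻¹, ?_, ?_⟩
  · exact Subgroup.mul_mem _ (Subgroup.mem_sup_left ha) (Subgroup.mem_sup_right (B.inv_mem hb))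
  · rw [← conjBy_conjBy, hconj, conjBy_conjBy]; simp [conjBy_one]

lemma RankOne.left_mem_unipotent (A B : Subgroup G) : A ∈ unipotentSubgroups A B :=
  ⟨1, Subgroup.one_mem _, (conjBy_one A).symm⟩

lemma RankOne.conjBy_mem_unipotent {C : Subgroup G} (hC : C ∈ unipotentSubgroups A B) {x : G}
    (hx : x ∈ A ⊔ B) : conjBy C x ∈ unipotentSubgroups A B := by
  obtain ⟨y, hy, rfl⟩ := hC
  exact ⟨x * y, Subgroup.mul_mem _ hx hy, conjBy_conjBy A y x⟩

/-- the orbit structure: every unipotent subgroup is `A` or an `A`-conjugate of `B` -/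
lemma RankOne.unipotent_cases (h : IsRankOnePair A B) {C : Subgroup G}
    (hC : C ∈ unipotentSubgroups A B) : C = A ∨ ∃ a ∈ A, C = conjBy B a := by
  -- the stabiliser subgroup of the set T
  let T : Set (Subgroup G) := {C | C = A ∨ ∃ a ∈ A, C = conjBy B a}
  have hA : ∀ a ∈ A, ∀ C ∈ T, conjBy C a ∈ T := by
    rintro a ha C (rfl | ⟨a', ha', rfl⟩)
    · left; exact conjBy_of_mem ha
    · right; exact ⟨a * a', A.mul_mem ha ha', conjBy_conjBy B a' a⟩
  have hBA : ∀ b ∈ B, conjBy A b ∈ T := by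
    intro b hb
    by_cases hb1 : b = 1
    · left; rw [hb1, conjBy_one]
    · have hb1' : b⁻¹ ≠ 1 := by simpa using hb1
      obtain ⟨a, ha, -, hconj⟩ := h.cond_right b⁻¹ (B.inv_mem hb) hb1'
      right
      refine ⟨a⁻¹, A.inv_mem ha, ?_⟩
      rw [hconj, inv_inv]
  have hB : ∀ b ∈ B, ∀ C ∈ T, conjBy C b ∈ T := by
    rintro b hb C (rfl | ⟨a, ha, rfl⟩)
    · exact hBA b hb
    · by_cases ha1 : a = 1
      · right
        refine ⟨1, A.one_mem, ?_⟩
        rw [ha1, conjBy_one, conjBy_of_mem hb]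
      · have ha1' : a⁻¹ ≠ 1 := by simpa using ha1
        obtain ⟨b₁, hb₁, -, hconj⟩ := h.cond_left a⁻¹ (A.inv_mem ha) ha1'
        rw [inv_inv] at hconj
        rw [← hconj, conjBy_conjBy]
        exact hBA _ (B.mul_mem hb (B.inv_mem hb₁))
  let H : Subgroup G :=
    { carrier := {x | ∀ C ∈ T, conjBy C x ∈ T ∧ conjBy C x⁻¹ ∈ T}
      mul_mem' := by
        intro x y hx hy C hC
        refine ⟨?_, ?_⟩
        · rw [← conjBy_conjBy]; exact (hx _ (hy C hC).1).1
        · rw [mul_inv_rev, ← conjBy_conjBy]; exact (hy _ (hx C hC).2).2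
      one_mem' := by
        intro C hC
        simp only [inv_one, conjBy_one, and_self]
        exact hC
      inv_mem' := by
        intro x hx C hC
        rw [inv_inv]
        exact ⟨(hx C hC).2, (hx C hC).1⟩ }
  have hAH : A ≤ H := fun a ha C hC => ⟨hA a ha C hC, hA a⁻¹ (A.inv_mem ha) C hC⟩
  have hBH : B ≤ H := fun b hb C hC => ⟨hB b hb C hC, hB b⁻¹ (B.inv_mem hb) C hC⟩
  have hsup : A ⊔ B ≤ H := sup_le hAH hBH
  obtain ⟨x, hx, rfl⟩ := hC
  exact (hsup hx A (Or.inl rfl)).1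

lemma RankOne.conjBy_right_ne_left (h : IsRankOnePair A B) {a : G} (ha : a ∈ A) :
    conjBy B a ≠ A := by
  intro h'
  have : B = conjBy A a⁻¹ := conjBy_eq_iff.mp h'
  rw [conjBy_of_mem (A.inv_mem ha)] at this
  exact h.ne this.symm

/-- regularity of `A` on the unipotent subgroups other than `A` -/
lemma RankOne.regular (h : IsRankOnePair A B) {C D : Subgroup G}
    (hC : C ∈ unipotentSubgroups A B) (hD : D ∈ unipotentSubgroups A B) (hCA : C ≠ A) (hDA : D ≠ A) :
    ∃! a : G, a ∈ A ∧ conjBy C a = D := by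
  rcases RankOne.unipotent_cases h hC with rfl | ⟨a₁, ha₁, rfl⟩
  · exact absurd rfl hCA
  rcases RankOne.unipotent_cases h hD with rfl | ⟨a₂, ha₂, rfl⟩
  · exact absurd rfl hDA
  refine ⟨a₂ * a₁⁻¹, ⟨A.mul_mem ha₂ (A.inv_mem ha₁), ?_⟩, ?_⟩
  · rw [conjBy_conjBy]; simp
  · rintro a ⟨ha, hconj⟩
    rw [conjBy_conjBy] at hconj
    have h3 : conjBy B (a₂⁻¹ * (a * a₁)) = B := by
      rw [← conjBy_conjBy, hconj, conjBy_inv_conjBy]
    have h4 := RankOne.eq_one_of_mem_normalizer h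
      (A.mul_mem (A.inv_mem ha₂) (A.mul_mem ha ha₁)) (conjBy_eq_self_iff.mp h3)
    have : a * a₁ = a₂ := by
      have := congrArg (fun z => a₂ * z) h4
      simpa using this
    rw [← this]; simp

/-- an ordered pair of different unipotent subgroups can be moved to `(A, B)` -/
lemma RankOne.move_pair (h : IsRankOnePair A B) {C₁ C₂ : Subgroup G}
    (h₁ : C₁ ∈ unipotentSubgroups A B) (h₂ : C₂ ∈ unipotentSubgroups A B) (hne : C₁ ≠ C₂) :
    ∃ x ∈ A ⊔ B, conjBy C₁ x = A ∧ conjBy C₂ x = B := by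
  obtain ⟨y, hy, rfl⟩ := h₁
  have hy' : y⁻¹ ∈ A ⊔ B := Subgroup.inv_mem _ hy
  have h3 : conjBy C₂ y⁻¹ ∈ unipotentSubgroups A B := RankOne.conjBy_mem_unipotent h₂ hy'
  have h4 : conjBy C₂ y⁻¹ ≠ A := by
    intro h'
    apply hne
    have := conjBy_eq_iff.mp h'
    rw [inv_inv] at this
    exact this.symm
  rcases RankOne.unipotent_cases h h3 with h5 | ⟨a, ha, h5⟩
  · exact absurd h5 h4
  refine ⟨a⁻¹ * y⁻¹, Subgroup.mul_mem _ (Subgroup.mem_sup_left (A.inv_mem ha)) hy', ?_, ?_⟩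
  · rw [conjBy_conjBy]
    have : a⁻¹ * y⁻¹ * y = a⁻¹ := by group
    rw [this]; exact conjBy_of_mem (A.inv_mem ha)
  · rw [← conjBy_conjBy, h5, conjBy_inv_conjBy]

/-- double transitivity on the unipotent subgroups -/
lemma RankOne.two_transitive (h : IsRankOnePair A B) {C₁ C₂ D₁ D₂ : Subgroup G}
    (hC₁ : C₁ ∈ unipotentSubgroups A B) (hC₂ : C₂ ∈ unipotentSubgroups A B)
    (hD₁ : D₁ ∈ unipotentSubgroups A B) (hD₂ : D₂ ∈ unipotentSubgroups A B)
    (hC : C₁ ≠ C₂) (hD : D₁ ≠ D₂) :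
    ∃ x ∈ A ⊔ B, conjBy C₁ x = D₁ ∧ conjBy C₂ x = D₂ := by
  obtain ⟨x, hx, hx1, hx2⟩ := RankOne.move_pair h hC₁ hC₂ hC
  obtain ⟨y, hy, hy1, hy2⟩ := RankOne.move_pair h hD₁ hD₂ hD
  refine ⟨y⁻¹ * x, Subgroup.mul_mem _ (Subgroup.inv_mem _ hy) hx, ?_, ?_⟩
  · rw [← conjBy_conjBy, hx1, ← hy1, conjBy_inv_conjBy]
  · rw [← conjBy_conjBy, hx2, ← hy2, conjBy_inv_conjBy]

/-- two different unipotent subgroups generate the whole rank one group -/
lemma RankOne.sup_eq_of_ne (h : IsRankOnePair A B) {C₁ C₂ : Subgroup G}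
    (h₁ : C₁ ∈ unipotentSubgroups A B) (h₂ : C₂ ∈ unipotentSubgroups A B) (hne : C₁ ≠ C₂) :
    C₁ ⊔ C₂ = A ⊔ B := by
  obtain ⟨x, hx, hx1, hx2⟩ := RankOne.move_pair h h₁ h₂ hne
  have h3 : conjBy (C₁ ⊔ C₂) x = A ⊔ B := by rw [conjBy_sup, hx1, hx2]
  have h4 := conjBy_eq_iff.mp h3
  rw [h4]
  exact conjBy_of_mem (Subgroup.inv_mem _ hx)

lemma RankOne.unipotent_le_sup {C : Subgroup G} (hC : C ∈ unipotentSubgroups A B) : C ≤ A ⊔ B := by
  obtain ⟨x, hx, rfl⟩ := hC
  exact conjBy_le_of_mem le_sup_left hx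

/-- a subgroup normalised by the rank one group and normalising `A` centralises the rank one group -/
lemma RankOne.central_of_le_normalizer (h : IsRankOnePair A B) {N : Subgroup G}
    (hN : ∀ x ∈ A ⊔ B, conjBy N x = N) (hNA : N ≤ Subgroup.normalizer (A : Set G)) :
    ∀ n ∈ N, ∀ x ∈ A ⊔ B, n * x = x * n := by
  -- N normalises B
  have hNB : N ≤ Subgroup.normalizer (B : Set G) := by
    intro n hn
    obtain ⟨x, hx, hBx⟩ := RankOne.right_mem_unipotent h
    rw [← conjBy_eq_self_iff]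
    have h1 : x⁻¹ * n * x ∈ N := by
      have := hN x hx
      rw [← this, mem_conjBy] at hn
      exact hn
    have h2 : conjBy A (x⁻¹ * n * x) = A := conjBy_eq_self_iff.mpr (hNA h1)
    rw [hBx, conjBy_conjBy]
    have : n * x = x * (x⁻¹ * n * x) := by group
    rw [this, ← conjBy_conjBy, h2]
  have key : ∀ {C D : Subgroup G}, IsRankOnePair C D → C ≤ A ⊔ B →
      N ≤ Subgroup.normalizer (C : Set G) → N ≤ Subgroup.normalizer (D : Set G) →
      ∀ n ∈ N, ∀ c ∈ C, n * c = c * n := by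
    intro C D hCD hCle hNC hND n hn c hc
    have h1 : n * c * n⁻¹ * c⁻¹ ∈ C := by
      have := (Subgroup.mem_normalizer_iff.mp (hNC hn) c).mp hc
      exact C.mul_mem this (C.inv_mem hc)
    have h2 : n * c * n⁻¹ * c⁻¹ ∈ N := by
      have h3 : c * n⁻¹ * c⁻¹ ∈ conjBy N c := conj_mem_conjBy (N.inv_mem hn)
      rw [hN c (hCle hc)] at h3
      have := N.mul_mem hn h3
      simpa [mul_assoc] using this
    have h4 := RankOne.eq_one_of_mem_normalizer hCD h1 (hND h2)
    have h5 : n * c = (n * c * n⁻¹ * c⁻¹) * (c * n) := by group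
    rw [h5, h4, one_mul]
  intro n hn x hx
  have hAc : A ≤ Subgroup.centralizer ({n} : Set G) := by
    intro a ha
    rw [Subgroup.mem_centralizer_iff]
    intro m hm
    rw [Set.mem_singleton_iff.mp hm]
    exact key h le_sup_left hNA hNB n hn a ha
  have hBc : B ≤ Subgroup.centralizer ({n} : Set G) := by
    intro b hb
    rw [Subgroup.mem_centralizer_iff]
    intro m hm
    rw [Set.mem_singleton_iff.mp hm]
    exact key (RankOnePair_symm h) le_sup_right hNB hNA n hn b hb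
  have := (sup_le hAc hBc) hx
  rw [Subgroup.mem_centralizer_iff] at this
  exact this n rfl

/-- a rank one group is not commutative -/
lemma RankOne.not_commute (h : IsRankOnePair A B) : ¬ ∀ a ∈ A, ∀ b ∈ B, a * b = b * a := by
  intro hc
  obtain ⟨b, hb, hb1⟩ := RankOne.exists_ne_one_right h
  apply hb1
  apply RankOne.eq_one_of_mem_normalizer' h hb
  rw [Subgroup.mem_normalizer_iff]
  intro a
  constructor
  · intro ha
    have : b * a * b⁻¹ = a := by
      rw [← hc a ha b hb]; group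
    rw [this]; exact ha
  · intro ha
    have h1 := hc _ ha b hb
    have : b * a * b⁻¹ = a := by
      have h2 : b * a * b⁻¹ * b = b * (b * a * b⁻¹) := h1
      have h3 : b * a = b * (b * a * b⁻¹) := by simpa using h2
      exact (mul_left_cancel h3).symm
    rw [← this]; exact ha

end RankOne

end Cfsg.Agent.Lib.Helper26
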