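import Mathlib
import Cfsg.Prelude.Def_RootSubgroups
import Cfsg.Agent.Lib.Helper26.RankOne

set_option autoImplicit false

namespace Cfsg.Agent.Lib.Helper26

open Cfsg
open scoped commutatorElement

variable {G : Type*} [Group G]

lemma conjBy_normal {N : Subgroup G} (hN : N.Normal) (x : G) : conjBy N x = N := by
  ext y
  rw [mem_conjBy]
  constructor
  · intro h
    have := hN.conj_mem _ h x
    simpa [mul_assoc] using this
  · intro h
    have := hN.conj_mem _ h x⁻¹
    simpa [mul_assoc] using this

section

variable {X : Type*} [Group X] {A B : Subgroup X}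

/-- a normal subgroup of a rank one group normalising `A` is central -/
lemma RankOneGroup.le_center_of_le_normalizer (h : IsRankOneGroup X A B) {N : Subgroup X}
    (hN : N.Normal) (hNA : N ≤ Subgroup.normalizer (A : Set X)) : N ≤ Subgroup.center X := by
  obtain ⟨htop, hp⟩ := h
  intro n hn
  rw [Subgroup.mem_center_iff]
  intro g
  have := RankOne.central_of_le_normalizer hp (N := N) (fun x _ => conjBy_normal hN x) hNA n hn g
    (by rw [htop]; trivial)
  exact this.symm

lemma RankOneGroup.normal_dichotomy (h : IsRankOneGroup X A B) {N : Subgroup X} (hN : N.Normal) :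
    N ⊔ A = ⊤ ∨ N ≤ Subgroup.center X := by
  by_cases hNA : N ≤ Subgroup.normalizer (A : Set X)
  · exact Or.inr (RankOneGroup.le_center_of_le_normalizer h hN hNA)
  · left
    obtain ⟨htop, hp⟩ := h
    obtain ⟨n, hn, hnA⟩ := SetLike.not_le_iff_exists.mp hNA
    have h1 : conjBy A n ∈ unipotentSubgroups A B := ⟨n, by rw [htop]; trivial, rfl⟩
    have h2 : conjBy A n ≠ A := fun h' => hnA (conjBy_eq_self_iff.mp h')
    rcases RankOne.unipotent_cases hp h1 with h3 | ⟨a, ha, h3⟩
    · exact absurd h3 h2
    · have h4 : B = conjBy A (a⁻¹ * n) := by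
        rw [← conjBy_conjBy, h3, conjBy_inv_conjBy]
      have h5 : B ≤ N ⊔ A := by
        rw [h4]
        exact conjBy_le_of_mem le_sup_right
          (Subgroup.mul_mem _ (Subgroup.mem_sup_right (A.inv_mem ha)) (Subgroup.mem_sup_left hn))
      rw [eq_top_iff, ← htop]
      exact sup_le le_sup_right h5

lemma RankOneGroup.center_ne_top (h : IsRankOneGroup X A B) : Subgroup.center X ≠ ⊤ := by
  intro hc
  apply RankOne.not_commute h.2
  intro a _ b _
  have : b ∈ Subgroup.center X := by rw [hc]; trivial
  exact (Subgroup.mem_center_iff.mp this a)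

lemma RankOneGroup.ucs_two_le_normalizer (h : IsRankOneGroup X A B) :
    Subgroup.upperCentralSeries X 2 ≤ Subgroup.normalizer (A : Set X) := by
  obtain ⟨htop, hp⟩ := h
  intro z hz
  by_contra hzA
  have h1 : conjBy A z ∈ unipotentSubgroups A B := ⟨z, by rw [htop]; trivial, rfl⟩
  have h2 : conjBy A z ≠ A := fun h' => hzA (conjBy_eq_self_iff.mp h')
  rcases RankOne.unipotent_cases hp h1 with h3 | ⟨a, ha, h3⟩
  · exact absurd h3 h2
  have h4 : B = conjBy A (a⁻¹ * z) := by
    rw [← conjBy_conjBy, h3, conjBy_inv_conjBy]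
  have hz' : ∀ y : X, ⁅z, y⁆ ∈ Subgroup.center X := by
    have := Subgroup.mem_upperCentralSeries_succ_iff.mp hz
    simpa [Subgroup.upperCentralSeries_one] using this
  obtain ⟨b, hb, hb1⟩ := RankOne.exists_ne_one_right hp
  apply hb1
  apply RankOne.eq_one_of_mem_normalizer' hp hb
  -- b is a central element times an element of A
  have hb' : (a⁻¹ * z)⁻¹ * b * (a⁻¹ * z) ∈ A := by
    have : b ∈ conjBy A (a⁻¹ * z) := h4 ▸ hb
    exact mem_conjBy.mp this
  set a' := (a⁻¹ * z)⁻¹ * b * (a⁻¹ * z) with ha'
  have hzeta := hz' a'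
  have hbeq : b = a⁻¹ * ⁅z, a'⁆ * a' * a := by
    rw [commutatorElement_def, ha']; group
  rw [hbeq]
  exact Subgroup.mul_mem _ (Subgroup.mul_mem _ (Subgroup.mul_mem _
    (Subgroup.le_normalizer (A.inv_mem ha)) (Subgroup.center_le_normalizer _ hzeta))
    (Subgroup.le_normalizer hb')) (Subgroup.le_normalizer ha)

lemma RankOneGroup.ucs_two_eq_center (h : IsRankOneGroup X A B) :
    Subgroup.upperCentralSeries X 2 = Subgroup.center X := by
  apply le_antisymm
  · exact RankOneGroup.le_center_of_le_normalizer h inferInstance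
      (RankOneGroup.ucs_two_le_normalizer h)
  · rw [← Subgroup.upperCentralSeries_one]
    exact Subgroup.upperCentralSeries_mono X (by norm_num)

lemma RankOneGroup.not_isNilpotent (h : IsRankOneGroup X A B) : ¬ Group.IsNilpotent X := by
  intro hnil
  have h1 : Subgroup.upperCentralSeries X 1 = Subgroup.upperCentralSeries X 2 := by
    rw [RankOneGroup.ucs_two_eq_center h, Subgroup.upperCentralSeries_one]
  have h2 := Subgroup.upperCentralSeries.eq_top (by norm_num : (1 : ℕ) ≠ 2) h1
  rw [Subgroup.upperCentralSeries_one] at h2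
  exact RankOneGroup.center_ne_top h h2

end

/-- a perfect nilpotent group is trivial -/
lemma top_eq_bot_of_perfect_of_nilpotent {H : Type*} [Group H] [Group.IsNilpotent H]
    (hperf : commutator H = ⊤) : (⊤ : Subgroup H) = ⊥ := by
  obtain ⟨n, hn⟩ := Subgroup.nilpotent_iff_lowerCentralSeries.mp (inferInstance : Group.IsNilpotent H)
  have : ∀ k : ℕ, (⊤ : Subgroup H).lowerCentralSeries k = ⊤ := by
    intro k
    induction k with
    | zero => simp
    | succ k ih => rw [Subgroup.lowerCentralSeries_succ, ih, ← commutator_def, hperf]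
  rw [← this n, hn]


end Cfsg.Agent.Lib.Helper26
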