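import Mathlib

set_option autoImplicit false

namespace Cfsg.Agent.Lib.Helper26

open scoped ComplexConjugate Matrix

/-- entrywise complex conjugation of a square matrix -/
noncomputable def cj {n : ℕ} (M : Matrix (Fin n) (Fin n) ℂ) : Matrix (Fin n) (Fin n) ℂ :=
  M.map (starRingEnd ℂ)

/-- a real matrix viewed as a complex matrix -/
noncomputable def rmap {n : ℕ} (M : Matrix (Fin n) (Fin n) ℝ) : Matrix (Fin n) (Fin n) ℂ :=
  M.map Complex.ofRealHom

variable {n : ℕ}

theorem cj_apply (M : Matrix (Fin n) (Fin n) ℂ) (i j : Fin n) : cj M i j = conj (M i j) := rfl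

theorem cj_mul (M N : Matrix (Fin n) (Fin n) ℂ) : cj (M * N) = cj M * cj N := by
  ext i j
  simp [cj_apply, Matrix.mul_apply, map_sum]

theorem cj_one : cj (1 : Matrix (Fin n) (Fin n) ℂ) = 1 := by
  ext i j
  simp [cj_apply, Matrix.one_apply, apply_ite]

theorem cj_add (M N : Matrix (Fin n) (Fin n) ℂ) : cj (M + N) = cj M + cj N := by
  ext i j
  simp [cj_apply]

theorem cj_smul (c : ℂ) (M : Matrix (Fin n) (Fin n) ℂ) : cj (c • M) = conj c • cj M := by
  ext i j
  simp [cj_apply]

theorem cj_cj (M : Matrix (Fin n) (Fin n) ℂ) : cj (cj M) = M := by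
  ext i j
  simp [cj_apply]

theorem cj_transpose (M : Matrix (Fin n) (Fin n) ℂ) : cj Mᵀ = Mᴴ := by
  ext i j
  simp [cj_apply, Matrix.conjTranspose_apply]

theorem cj_conjTranspose (M : Matrix (Fin n) (Fin n) ℂ) : cj Mᴴ = Mᵀ := by
  ext i j
  simp [cj_apply, Matrix.conjTranspose_apply]

theorem rmap_apply (M : Matrix (Fin n) (Fin n) ℝ) (i j : Fin n) : rmap M i j = (M i j : ℂ) := rfl

theorem rmap_mul (M N : Matrix (Fin n) (Fin n) ℝ) : rmap (M * N) = rmap M * rmap N := by
  ext i j
  simp [rmap_apply, Matrix.mul_apply]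

theorem rmap_one : rmap (1 : Matrix (Fin n) (Fin n) ℝ) = 1 := by
  ext i j
  simp [rmap_apply, Matrix.one_apply, apply_ite]

theorem rmap_transpose (M : Matrix (Fin n) (Fin n) ℝ) : rmap Mᵀ = (rmap M)ᵀ := by
  ext i j
  simp [rmap_apply]

theorem rmap_injective : Function.Injective (rmap : Matrix (Fin n) (Fin n) ℝ → _) := by
  intro M N h
  ext i j
  have := congrFun (congrFun h i) j
  rw [rmap_apply, rmap_apply] at this
  exact_mod_cast this

theorem trace_rmap (M : Matrix (Fin n) (Fin n) ℝ) :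
    Matrix.trace (rmap M) = ((Matrix.trace M : ℝ) : ℂ) := by
  simp [Matrix.trace, rmap_apply]

/-- matrix form of Hilbert's Theorem 90 for complex conjugation -/
theorem exists_hilbert90 (A : Matrix (Fin n) (Fin n) ℂ) (hA : A * cj A = 1) :
    ∃ S : Matrix (Fin n) (Fin n) ℂ, IsUnit S.det ∧ A * cj S = S := by
  classical
  let Q : Matrix (Fin n) (Fin n) (Polynomial ℂ) :=
    (Polynomial.X + Polynomial.C Complex.I) • (1 : Matrix (Fin n) (Fin n) (Polynomial ℂ))
      + (Polynomial.X - Polynomial.C Complex.I) • A.map Polynomial.C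
  have hev : ∀ t : ℂ, (Matrix.det Q).eval t
      = Matrix.det ((t + Complex.I) • (1 : Matrix (Fin n) (Fin n) ℂ) + (t - Complex.I) • A) := by
    intro t
    have h1 := RingHom.map_det (Polynomial.evalRingHom t) Q
    rw [Polynomial.coe_evalRingHom] at h1
    rw [h1]
    congr 1
    ext i j
    simp [Q, Matrix.one_apply, apply_ite]
  have hP : Matrix.det Q ≠ 0 := by
    intro h0
    have h1 := hev Complex.I
    rw [h0, Polynomial.eval_zero, sub_self, zero_smul, add_zero, Matrix.det_smul, Matrix.det_one,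
      mul_one] at h1
    have h2 : (Complex.I + Complex.I) ≠ 0 := by
      intro h
      have := congrArg Complex.im h
      simp at this
    exact pow_ne_zero _ h2 h1.symm
  obtain ⟨t, ht⟩ : ∃ t : ℕ, (Matrix.det Q).eval (t : ℂ) ≠ 0 := by
    by_contra hcon
    push Not at hcon
    exact hP (Polynomial.eq_zero_of_infinite_isRoot _
      (Set.infinite_of_injective_forall_mem (f := fun t : ℕ => (t : ℂ)) Nat.cast_injective hcon))
  refine ⟨((t : ℂ) + Complex.I) • 1 + ((t : ℂ) - Complex.I) • A, ?_, ?_⟩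
  · rw [← hev]
    exact isUnit_iff_ne_zero.2 ht
  · have e1 : conj ((t : ℂ) + Complex.I) = (t : ℂ) - Complex.I := by
      simp [sub_eq_add_neg]
    have e2 : conj ((t : ℂ) - Complex.I) = (t : ℂ) + Complex.I := by
      simp [sub_eq_add_neg]
    rw [cj_add, cj_smul, cj_smul, cj_one, Matrix.mul_add, Matrix.mul_smul, Matrix.mul_smul,
      Matrix.mul_one, hA, e1, e2, add_comm]

/-- conjugating by a Hilbert 90 matrix makes a semilinearly commuting matrix real -/
theorem real_of_hilbert90 (A S X : Matrix (Fin n) (Fin n) ℂ) (hS : IsUnit S.det)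
    (hAS : A * cj S = S) (hAX : A * cj X = X * A) :
    cj (S⁻¹ * X * S) = S⁻¹ * X * S := by
  have h1 : S * cj (S⁻¹ * X * S) = X * S := by
    calc S * cj (S⁻¹ * X * S) = (A * cj S) * cj (S⁻¹ * X * S) := by rw [hAS]
      _ = A * cj (S * (S⁻¹ * X * S)) := by rw [cj_mul S (S⁻¹ * X * S), Matrix.mul_assoc]
      _ = A * cj (X * S) := by
          rw [← Matrix.mul_assoc, ← Matrix.mul_assoc, Matrix.mul_nonsing_inv _ hS, Matrix.one_mul]
      _ = (A * cj X) * cj S := by rw [cj_mul, Matrix.mul_assoc]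
      _ = X * (A * cj S) := by rw [hAX, Matrix.mul_assoc]
      _ = X * S := by rw [hAS]
  calc cj (S⁻¹ * X * S) = S⁻¹ * (S * cj (S⁻¹ * X * S)) := by
        rw [← Matrix.mul_assoc, Matrix.nonsing_inv_mul _ hS, Matrix.one_mul]
    _ = S⁻¹ * X * S := by rw [h1, Matrix.mul_assoc]

/-- a multiplicative family of complex matrices with real entries gives a real representation -/
theorem exists_real_rep {G : Type*} [Group G] (Y : G → Matrix (Fin n) (Fin n) ℂ)
    (hone : Y 1 = 1) (hmul : ∀ g h, Y (g * h) = Y g * Y h) (hreal : ∀ g, cj (Y g) = Y g) :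
    ∃ ρ : Representation ℝ G (Fin n → ℝ), ∀ g : G,
      ((LinearMap.trace ℝ (Fin n → ℝ) (ρ g) : ℝ) : ℂ) = Matrix.trace (Y g) := by
  classical
  let Z : G → Matrix (Fin n) (Fin n) ℝ := fun g => (Y g).map Complex.re
  have hZ : ∀ g, rmap (Z g) = Y g := by
    intro g
    ext i j
    have h1 := congrFun (congrFun (hreal g) i) j
    rw [cj_apply] at h1
    exact Complex.conj_eq_iff_re.1 h1
  have hZone : Z 1 = 1 := by
    apply rmap_injective
    rw [hZ, hone, rmap_one]
  have hZmul : ∀ g h, Z (g * h) = Z g * Z h := by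
    intro g h
    apply rmap_injective
    rw [hZ, hmul, rmap_mul, hZ, hZ]
  let ρ : Representation ℝ G (Fin n → ℝ) :=
    { toFun := fun g => Matrix.toLin' (Z g)
      map_one' := by rw [hZone, Matrix.toLin'_one]; rfl
      map_mul' := fun g h => by rw [hZmul, Matrix.toLin'_mul]; rfl }
  refine ⟨ρ, fun g => ?_⟩
  have h1 : LinearMap.trace ℝ (Fin n → ℝ) (ρ g) = Matrix.trace (Z g) := by
    show LinearMap.trace ℝ (Fin n → ℝ) (Matrix.toLin' (Z g)) = _
    rw [LinearMap.trace_eq_matrix_trace ℝ (Pi.basisFun ℝ (Fin n)),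
      LinearMap.toMatrix_eq_toMatrix', LinearMap.toMatrix'_toLin']
  rw [h1, ← hZ g, trace_rmap]

end Cfsg.Agent.Lib.Helper26
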