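import Mathlib
import Cfsg.Prelude.Def_RootSubgroups
import Cfsg.Agent.Lib.Helper26.RankOne
import Cfsg.Agent.Lib.Helper26.RankOneGroup

set_option autoImplicit false

namespace Cfsg.Agent.Lib.Helper26

open Cfsg
open scoped commutatorElement

variable {G : Type*} [Group G]

/-- a conjugate of a rank one pair is a rank one pair -/
lemma RankOne.conj {A B : Subgroup G} (h : IsRankOnePair A B) (g : G) :
    IsRankOnePair (conjBy A g) (conjBy B g) := by
  have cond : ∀ {A B : Subgroup G}, RankOneCondition A B →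
      RankOneCondition (conjBy A g) (conjBy B g) := by
    intro A B hc a' ha' ha'1
    have ha : g⁻¹ * a' * g ∈ A := mem_conjBy.mp ha'
    have ha1 : g⁻¹ * a' * g ≠ 1 := by
      intro h1
      apply ha'1
      have : a' = g * (g⁻¹ * a' * g) * g⁻¹ := by group
      rw [this, h1]; group
    obtain ⟨b, hb, hb1, hconj⟩ := hc _ ha ha1
    refine ⟨g * b * g⁻¹, conj_mem_conjBy hb, ?_, ?_⟩
    · intro h1
      apply hb1
      have : b = g⁻¹ * (g * b * g⁻¹) * g := by group
      rw [this, h1]; group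
    · rw [conjBy_conjBy, conjBy_conjBy]
      have e1 : (g * b * g⁻¹)⁻¹ * g = g * b⁻¹ := by group
      have e2 : a'⁻¹ * g = g * (g⁻¹ * a' * g)⁻¹ := by group
      rw [e1, e2, ← conjBy_conjBy, ← conjBy_conjBy, hconj]
  refine ⟨fun h' => h.ne (conjBy_injective g h'), isNilpotent_conjBy h.nilpotent_left g,
    isNilpotent_conjBy h.nilpotent_right g, cond h.cond_left, cond h.cond_right⟩

lemma conjBy_subgroupOf (H C : Subgroup G) (x : H) :
    conjBy (C.subgroupOf H) x = (conjBy C (x : G)).subgroupOf H := by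
  ext y
  rw [mem_conjBy, Subgroup.mem_subgroupOf, Subgroup.mem_subgroupOf, mem_conjBy]
  rfl

/-- a rank one pair gives a rank one group structure on the subgroup it generates -/
lemma RankOne.toGroup {A B : Subgroup G} (h : IsRankOnePair A B) :
    IsRankOneGroup ↥(A ⊔ B) (A.subgroupOf (A ⊔ B)) (B.subgroupOf (A ⊔ B)) := by
  have hA : A ≤ A ⊔ B := le_sup_left
  have hB : B ≤ A ⊔ B := le_sup_right
  have cond : ∀ {A B H : Subgroup G}, A ≤ H → B ≤ H → RankOneCondition A B →
      RankOneCondition (A.subgroupOf H) (B.subgroupOf H) := by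
    intro A B H hA hB hc a ha ha1
    have ha' : (a : G) ∈ A := Subgroup.mem_subgroupOf.mp ha
    have ha1' : (a : G) ≠ 1 := fun h1 => ha1 (Subtype.ext h1)
    obtain ⟨b, hb, hb1, hconj⟩ := hc _ ha' ha1'
    refine ⟨⟨b, hB hb⟩, Subgroup.mem_subgroupOf.mpr hb, fun h1 => hb1 (congrArg Subtype.val h1), ?_⟩
    rw [conjBy_subgroupOf, conjBy_subgroupOf]
    show (conjBy A b⁻¹).subgroupOf H = (conjBy B (a : G)⁻¹).subgroupOf H
    rw [hconj]
  refine ⟨?_, ?_, ?_, ?_, cond hA hB h.cond_left, cond hB hA h.cond_right⟩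
  · rw [← Subgroup.subgroupOf_sup hA hB, Subgroup.subgroupOf_self]
  · intro h'
    apply h.ne
    have := congrArg (Subgroup.map (A ⊔ B).subtype) h'
    rwa [Subgroup.map_subgroupOf_eq_of_le hA, Subgroup.map_subgroupOf_eq_of_le hB] at this
  · have := h.nilpotent_left
    exact Group.nilpotent_of_mulEquiv (Subgroup.subgroupOfEquivOfLe hA).symm
  · have := h.nilpotent_right
    exact Group.nilpotent_of_mulEquiv (Subgroup.subgroupOfEquivOfLe hB).symm

lemma RankOne.not_isNilpotent_sup {A B : Subgroup G} (h : IsRankOnePair A B) :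
    ¬ Group.IsNilpotent ↥(A ⊔ B) :=
  RankOneGroup.not_isNilpotent (RankOne.toGroup h)

/-- an element normalising every unipotent subgroup centralises the rank one group -/
lemma RankOne.central_of_normalizes_all {A B : Subgroup G} (h : IsRankOnePair A B) {n : G}
    (hn : ∀ E ∈ unipotentSubgroups A B, conjBy E n = E) : ∀ x ∈ A ⊔ B, n * x = x * n := by
  have hn' : ∀ E ∈ unipotentSubgroups A B, conjBy E n⁻¹ = E := by
    intro E hE
    have := hn E hE
    exact (conjBy_eq_iff.mp this).symm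
  have hBmem := RankOne.right_mem_unipotent h
  have hAmem := RankOne.left_mem_unipotent A B
  have key : ∀ {C D : Subgroup G}, IsRankOnePair C D → C ≤ A ⊔ B →
      C ∈ unipotentSubgroups A B → D ∈ unipotentSubgroups A B → ∀ c ∈ C, n * c = c * n := by
    intro C D hCD hCle hC hD c hc
    have h1 : n * c * n⁻¹ * c⁻¹ ∈ C := by
      have h2 : n * c * n⁻¹ ∈ conjBy C n := conj_mem_conjBy hc
      rw [hn C hC] at h2
      exact C.mul_mem h2 (C.inv_mem hc)
    have h3 : conjBy D (n * c * n⁻¹ * c⁻¹) = D := by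
      have e : n * c * n⁻¹ * c⁻¹ = n * (c * (n⁻¹ * c⁻¹)) := by group
      rw [e, ← conjBy_conjBy, ← conjBy_conjBy, ← conjBy_conjBy]
      have h4 : conjBy D c⁻¹ ∈ unipotentSubgroups A B :=
        RankOne.conjBy_mem_unipotent hD (Subgroup.inv_mem _ (hCle hc))
      rw [hn' _ h4, conjBy_conjBy_inv, hn D hD]
    have h5 := RankOne.eq_one_of_mem_normalizer hCD h1 (conjBy_eq_self_iff.mp h3)
    have h6 : n * c = (n * c * n⁻¹ * c⁻¹) * (c * n) := by group
    rw [h6, h5, one_mul]
  intro x hx
  have hAc : A ≤ Subgroup.centralizer ({n} : Set G) := by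
    intro a ha
    rw [Subgroup.mem_centralizer_iff]
    intro m hm
    rw [Set.mem_singleton_iff.mp hm]
    exact key h le_sup_left hAmem hBmem a ha
  have hBc : B ≤ Subgroup.centralizer ({n} : Set G) := by
    intro b hb
    rw [Subgroup.mem_centralizer_iff]
    intro m hm
    rw [Set.mem_singleton_iff.mp hm]
    exact key (RankOnePair_symm h) le_sup_right hBmem hAmem b hb
  have := (sup_le hAc hBc) hx
  rw [Subgroup.mem_centralizer_iff] at this
  exact this n rfl

section RootSet

variable {S : Set (Subgroup G)}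

lemma RootSet.exists_partner {A : Subgroup G} (hA : ¬ IsIsolatedIn (FAdj S) S A) (hAS : A ∈ S) :
    ∃ B ∈ S, IsRankOnePair A B := by
  unfold IsIsolatedIn at hA
  push Not at hA
  obtain ⟨B, hB⟩ := hA hAS
  by_cases h1 : FAdj S A B
  · exact ⟨B, h1.2.1, h1.2.2⟩
  · have h2 := hB h1
    exact ⟨B, h2.1, RankOnePair_symm h2.2.2⟩

/-- in the commutator case, the conjugates of `B` by elements of `C` commute with `B` -/
lemma RootSet.comm_of_commutatorCase {C B : Subgroup G} (hBc : IsMulCommutative B)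
    (h : RootCommutatorCase S C B) {c : G} (hc : c ∈ C) :
    ∀ x ∈ conjBy B c, ∀ y ∈ B, x * y = y * x := by
  intro x hx y hy
  have hb' : c⁻¹ * x * c ∈ B := mem_conjBy.mp hx
  set b' := c⁻¹ * x * c with hb'def
  have hz : ⁅c, b'⁆ ∈ ⁅C, B⁆ := Subgroup.commutator_mem_commutator hc hb'
  have hzy := h.2.1 _ hz y (Subgroup.mem_sup_right hy)
  have hx' : x = ⁅c, b'⁆ * b' := by
    rw [commutatorElement_def, hb'def]; group
  have hby : b' * y = y * b' := setLike_mul_comm hb' hy
  rw [hx', mul_assoc, hby, ← mul_assoc, hzy, mul_assoc]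

/-- the core lemma: if `c ∈ C ∈ S` acts on `B` like a non-identity `a ∈ A`, where `(A, B)` is a
rank one pair with `B ∈ S`, then `C` is a conjugate of `A` under `B` -/
lemma RootSet.conj_of_same_action (hS : IsRootSubgroupSet S) {A B C : Subgroup G}
    (hAB : IsRankOnePair A B) (hB : B ∈ S) (hC : C ∈ S) {a c : G} (ha : a ∈ A) (ha1 : a ≠ 1)
    (hc : c ∈ C) (hact : conjBy B c⁻¹ = conjBy B a⁻¹) :
    ∃ b ∈ B, C = conjBy A b := by
  have hBa : conjBy B a⁻¹ ≠ B := by
    intro h'
    apply ha1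
    have h1 := RankOne.eq_one_of_mem_normalizer hAB (A.inv_mem ha) (conjBy_eq_self_iff.mp h')
    simpa using h1
  obtain ⟨b, hb, hb1, hconj⟩ := hAB.cond_left a ha ha1
  rcases hS.pair C hC B hB with hcomm | hro | hcc
  · exfalso
    apply hBa
    rw [← hact]
    apply conjBy_eq_self_iff.mpr
    have h1 : C ≤ Subgroup.centralizer (B : Set G) :=
      Subgroup.commutator_eq_bot_iff_le_centralizer.mp hcomm
    exact Subgroup.centralizer_le_normalizer _ (h1 (C.inv_mem hc))
  · have hc1 : c ≠ 1 := by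
      intro h1
      apply hBa
      rw [← hact, h1, inv_one, conjBy_one]
    obtain ⟨b', hb', hb'1, hconj'⟩ := hro.cond_left c hc hc1
    refine ⟨b' * b⁻¹, B.mul_mem hb' (B.inv_mem hb), ?_⟩
    rw [← conjBy_conjBy, hconj, ← hact, ← hconj', conjBy_conjBy_inv]
  · exfalso
    have hBcomm : IsMulCommutative B := hS.commutative B hB
    have h1 := RootSet.comm_of_commutatorCase hBcomm hcc (C.inv_mem hc)
    rw [hact, ← hconj] at h1
    have h2 : IsRankOnePair (conjBy A b⁻¹) (conjBy B b⁻¹) := RankOne.conj hAB b⁻¹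
    rw [conjBy_of_mem (B.inv_mem hb)] at h2
    exact RankOne.not_commute h2 h1

end RootSet

end Cfsg.Agent.Lib.Helper26
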