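import Mathlib
import Cfsg.Prelude.Def_RootSubgroups
import Cfsg.Agent.Lib.Helper26.RootSet
import Cfsg.Agent.S5025
import Cfsg.Agent.S5028

set_option autoImplicit false

namespace Cfsg.Agent.Lib.Helper26

open Cfsg
open scoped commutatorElement

variable {G : Type*} [Group G] {S : Set (Subgroup G)}

namespace CommCase

variable {A B : Subgroup G}

lemma comm_mem {a b : G} (ha : a ∈ A) (hb : b ∈ B) : a * b * a⁻¹ * b⁻¹ ∈ ⁅A, B⁆ :=
  Subgroup.commutator_mem_commutator ha hb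

lemma comm_mem' {a b : G} (ha : a ∈ A) (hb : b ∈ B) : b * a * b⁻¹ * a⁻¹ ∈ ⁅A, B⁆ := by
  rw [Subgroup.commutator_comm]
  exact Subgroup.commutator_mem_commutator hb ha

lemma mul_right (h : RootCommutatorCase S A B) {a b₁ b₂ : G} (ha : a ∈ A) (hb₁ : b₁ ∈ B)
    (hb₂ : b₂ ∈ B) :
    a * (b₁ * b₂) * a⁻¹ * (b₁ * b₂)⁻¹ = (a * b₁ * a⁻¹ * b₁⁻¹) * (a * b₂ * a⁻¹ * b₂⁻¹) := by
  have hc := h.2.1 _ (comm_mem ha hb₂) b₁⁻¹ (Subgroup.mem_sup_right (B.inv_mem hb₁))
  calc a * (b₁ * b₂) * a⁻¹ * (b₁ * b₂)⁻¹ = a * b₁ * a⁻¹ * ((a * b₂ * a⁻¹ * b₂⁻¹) * b₁⁻¹) := by group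
    _ = a * b₁ * a⁻¹ * (b₁⁻¹ * (a * b₂ * a⁻¹ * b₂⁻¹)) := by rw [hc]
    _ = _ := by group

lemma inv_right (h : RootCommutatorCase S A B) {a b : G} (ha : a ∈ A) (hb : b ∈ B) :
    a * b⁻¹ * a⁻¹ * b⁻¹⁻¹ = (a * b * a⁻¹ * b⁻¹)⁻¹ := by
  have h1 := mul_right h ha hb (B.inv_mem hb)
  have e : a * (b * b⁻¹) * a⁻¹ * (b * b⁻¹)⁻¹ = 1 := by group
  rw [e] at h1
  exact eq_inv_of_mul_eq_one_right h1.symm

lemma surj_right (h : RootCommutatorCase S A B) {a : G} (ha : a ∈ A) (ha1 : a ≠ 1) {c : G}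
    (hc : c ∈ ⁅A, B⁆) : ∃ b ∈ B, a * b * a⁻¹ * b⁻¹ = c := by
  have hc' : c ∈ Subgroup.closure ((fun b : G => a * b * a⁻¹ * b⁻¹) '' (B : Set G)) := by
    rw [h.2.2.1 a ha ha1]; exact hc
  refine Subgroup.closure_induction (p := fun c _ => ∃ b ∈ B, a * b * a⁻¹ * b⁻¹ = c)
    ?_ ?_ ?_ ?_ hc'
  · rintro x ⟨b, hb, rfl⟩
    exact ⟨b, hb, rfl⟩
  · exact ⟨1, B.one_mem, by group⟩
  · rintro x y _ _ ⟨b₁, hb₁, rfl⟩ ⟨b₂, hb₂, rfl⟩
    exact ⟨b₁ * b₂, B.mul_mem hb₁ hb₂, mul_right h ha hb₁ hb₂⟩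
  · rintro x _ ⟨b, hb, rfl⟩
    exact ⟨b⁻¹, B.inv_mem hb, inv_right h ha hb⟩

lemma symm (h : RootCommutatorCase S A B) : RootCommutatorCase S B A := by
  have e : ⁅B, A⁆ = ⁅A, B⁆ := Subgroup.commutator_comm B A
  have key : ∀ (X : Subgroup G) (b : G),
      (fun a : G => b * a * b⁻¹ * a⁻¹) '' (X : Set G) =
        ((fun a : G => a * b * a⁻¹ * b⁻¹) '' (X : Set G))⁻¹ := by
    intro X b
    ext x
    simp only [Set.mem_image, Set.mem_inv, SetLike.mem_coe]
    constructor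
    · rintro ⟨a, ha, rfl⟩; exact ⟨a, ha, by group⟩
    · rintro ⟨a, ha, hx⟩; exact ⟨a, ha, by rw [← inv_inv x, ← hx]; group⟩
  have key' : ∀ (X : Subgroup G) (b : G),
      (fun a : G => a * b * a⁻¹ * b⁻¹) '' (X : Set G) =
        ((fun a : G => b * a * b⁻¹ * a⁻¹) '' (X : Set G))⁻¹ := by
    intro X b
    rw [key X b, inv_inv]
  refine ⟨e ▸ h.1, ?_, ?_, ?_⟩
  · intro c hc x hx
    rw [e] at hc; rw [sup_comm] at hx; exact h.2.1 c hc x hx
  · intro b hb hb1
    rw [e, ← h.2.2.2 b hb hb1, key A b, Subgroup.closure_inv]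
  · intro a ha ha1
    rw [e, ← h.2.2.1 a ha ha1, key' B a, Subgroup.closure_inv]

/-- for fixed non-identity `b ∈ B`, every element of `⁅A, B⁆` is a commutator `a b a⁻¹ b⁻¹` -/
lemma surj_left (h : RootCommutatorCase S A B) {b : G} (hb : b ∈ B) (hb1 : b ≠ 1) {c : G}
    (hc : c ∈ ⁅A, B⁆) : ∃ a ∈ A, a * b * a⁻¹ * b⁻¹ = c := by
  have hc' : c⁻¹ ∈ ⁅B, A⁆ := by
    rw [Subgroup.commutator_comm]; exact Subgroup.inv_mem _ hc
  obtain ⟨a, ha, hab⟩ := surj_right (symm h) hb hb1 hc'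
  refine ⟨a, ha, ?_⟩
  rw [← inv_inv c, ← hab]; group

/-- for fixed non-identity `a ∈ A`, every product `c a` with `c ∈ ⁅A, B⁆` is a `B`-conjugate of `a` -/
lemma exists_conj_left (h : RootCommutatorCase S A B) {a : G} (ha : a ∈ A) (ha1 : a ≠ 1) {c : G}
    (hc : c ∈ ⁅A, B⁆) : ∃ b ∈ B, b * a * b⁻¹ = c * a := by
  obtain ⟨b, hb, hab⟩ := surj_right h ha ha1 (Subgroup.inv_mem _ hc)
  refine ⟨b, hb, ?_⟩
  have : c = (a * b * a⁻¹ * b⁻¹)⁻¹ := by rw [hab, inv_inv]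
  rw [this]; group

lemma exists_conj_right (h : RootCommutatorCase S A B) {b : G} (hb : b ∈ B) (hb1 : b ≠ 1) {c : G}
    (hc : c ∈ ⁅A, B⁆) : ∃ a ∈ A, a * b * a⁻¹ = c * b := by
  obtain ⟨a, ha, hab⟩ := surj_left h hb hb1 hc
  refine ⟨a, ha, ?_⟩
  rw [← hab]; group

lemma ne_left (hS : IsRootSubgroupSet S) (h : RootCommutatorCase S A B) : A ≠ ⁅A, B⁆ := by
  intro hA
  apply hS.ne_bot _ h.1
  rw [Subgroup.commutator_eq_bot_iff_le_centralizer]
  intro a ha
  rw [Subgroup.mem_centralizer_iff]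
  intro b hb
  have : a ∈ ⁅A, B⁆ := by rw [← hA]; exact ha
  exact (h.2.1 a this b (Subgroup.mem_sup_right hb)).symm

lemma ne_right (hS : IsRootSubgroupSet S) (h : RootCommutatorCase S A B) : B ≠ ⁅A, B⁆ := by
  have := ne_left hS (symm h)
  rwa [Subgroup.commutator_comm] at this

lemma commute_left (h : RootCommutatorCase S A B) {c a : G} (hc : c ∈ ⁅A, B⁆) (ha : a ∈ A) :
    c * a = a * c := h.2.1 c hc a (Subgroup.mem_sup_left ha)

lemma commute_right (h : RootCommutatorCase S A B) {c b : G} (hc : c ∈ ⁅A, B⁆) (hb : b ∈ B) :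
    c * b = b * c := h.2.1 c hc b (Subgroup.mem_sup_right hb)

/-- if `A` has a rank one partner, `b ↦ a b a⁻¹ b⁻¹` is injective on `B` for non-identity `a ∈ A` -/
lemma inj_right (hS : IsRootSubgroupSet S) (hA : ¬ IsIsolatedIn (FAdj S) S A) (hAS : A ∈ S)
    (h : RootCommutatorCase S A B) {a b : G} (ha : a ∈ A) (ha1 : a ≠ 1) (hb : b ∈ B)
    (hab : a * b * a⁻¹ * b⁻¹ = 1) : b = 1 := by
  by_contra hb1
  have hcomm : b * a * b⁻¹ = a := by
    have e : b * a * b⁻¹ = (a * b * a⁻¹ * b⁻¹)⁻¹ * a := by group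
    rw [e, hab, inv_one, one_mul]
  have hmem : a ∈ A ⊓ conjBy A b := by
    refine ⟨ha, ?_⟩
    have := conj_mem_conjBy (g := b) ha
    rwa [hcomm] at this
  rcases Cfsg.Agent.S5028.result hS hA hAS (conjBy A b) (hS.conj_mem A hAS b) with h0 | h0
  · rw [h0] at hmem; exact ha1 (Subgroup.mem_bot.mp hmem)
  · have hle : ⁅A, B⁆ ≤ A := by
      rw [← h.2.2.2 b hb hb1, Subgroup.closure_le]
      rintro x ⟨a', ha', rfl⟩
      have h1 : b * a'⁻¹ * b⁻¹ ∈ A := h0.ge (conj_mem_conjBy (A.inv_mem ha'))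
      have e : a' * b * a'⁻¹ * b⁻¹ = a' * (b * a'⁻¹ * b⁻¹) := by group
      show a' * b * a'⁻¹ * b⁻¹ ∈ A
      rw [e]; exact A.mul_mem ha' h1
    rcases Cfsg.Agent.S5028.result hS hA hAS _ h.1 with h2 | h2
    · rw [inf_eq_right.mpr hle] at h2
      exact hS.ne_bot _ h.1 h2
    · exact ne_left hS h h2

/-- injectivity in the form `[a, b₁] = [a, b₂] → b₁ = b₂` -/
lemma inj_right' (hS : IsRootSubgroupSet S) (hA : ¬ IsIsolatedIn (FAdj S) S A) (hAS : A ∈ S)
    (h : RootCommutatorCase S A B) {a b₁ b₂ : G} (ha : a ∈ A) (ha1 : a ≠ 1) (hb₁ : b₁ ∈ B)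
    (hb₂ : b₂ ∈ B) (hab : a * b₁ * a⁻¹ * b₁⁻¹ = a * b₂ * a⁻¹ * b₂⁻¹) : b₁ = b₂ := by
  have h1 := mul_right h ha hb₁ (B.inv_mem hb₂)
  rw [inv_right h ha hb₂, hab, mul_inv_cancel] at h1
  have := inj_right hS hA hAS h ha ha1 (B.mul_mem hb₁ (B.inv_mem hb₂)) h1
  exact mul_inv_eq_one.mp this

end CommCase

section RootSetComm

lemma mem_centralizer_sup {P Q : Subgroup G} {z : G} (hzP : ∀ x ∈ P, x * z = z * x)
    (hzQ : ∀ x ∈ Q, x * z = z * x) :
    z ∈ Subgroup.centralizer ((P ⊔ Q : Subgroup G) : Set G) := by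
  have h : P ⊔ Q ≤ Subgroup.centralizer ({z} : Set G) := by
    refine sup_le ?_ ?_
    · intro x hx
      rw [Subgroup.mem_centralizer_iff]
      intro y hy
      rw [Set.mem_singleton_iff.mp hy]
      exact (hzP x hx).symm
    · intro x hx
      rw [Subgroup.mem_centralizer_iff]
      intro y hy
      rw [Set.mem_singleton_iff.mp hy]
      exact (hzQ x hx).symm
  rw [Subgroup.mem_centralizer_iff]
  intro x hx
  have := h hx
  rw [Subgroup.mem_centralizer_iff] at this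
  exact (this z rfl).symm

lemma RootSet.not_isolated_of_rankOne {A B : Subgroup G} (hA : A ∈ S) (hB : B ∈ S)
    (h : IsRankOnePair A B) : ¬ IsIsolatedIn (FAdj S) S A :=
  fun hi => (hi.2 B).1 ⟨hA, hB, h⟩

lemma RootSet.not_isolated_conj (hS : IsRootSubgroupSet S) {A : Subgroup G}
    (hA : ¬ IsIsolatedIn (FAdj S) S A) (hAS : A ∈ S) (g : G) :
    ¬ IsIsolatedIn (FAdj S) S (conjBy A g) := by
  obtain ⟨B, hB, hAB⟩ := RootSet.exists_partner hA hAS
  exact RootSet.not_isolated_of_rankOne (hS.conj_mem A hAS g) (hS.conj_mem B hB g)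
    (RankOne.conj hAB g)

lemma RootSet.conjBy_commutator (A B : Subgroup G) {x : G} (hx : x ∈ A ⊔ B) :
    conjBy ⁅A, B⁆ x = ⁅A, B⁆ :=
  conjBy_eq_self_iff.mpr ((sup_le (Subgroup.normalizer_commutator_ge_left A B)
    (Subgroup.normalizer_commutator_ge_right A B)) hx)

lemma RootSet.exists_ne_one (hS : IsRootSubgroupSet S) {A : Subgroup G} (hA : A ∈ S) :
    ∃ a ∈ A, a ≠ 1 := by
  by_contra hcon
  push Not at hcon
  exact hS.ne_bot _ hA ((Subgroup.eq_bot_iff_forall _).mpr hcon)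

lemma conj_ne_one {a g : G} (ha : a ≠ 1) : g * a * g⁻¹ ≠ 1 := by
  intro h1
  apply ha
  have : a = g⁻¹ * (g * a * g⁻¹) * g := by group
  rw [this, h1]; group

/-- a rank one pair of members of a set of root subgroups never has its commutator in the set -/
lemma RootSet.commutator_not_mem_of_rankOne (hS : IsRootSubgroupSet S) {A B : Subgroup G}
    (hA : A ∈ S) (hB : B ∈ S) (h : IsRankOnePair A B) : ⁅A, B⁆ ∉ S := by
  intro hN
  have hNle : ⁅A, B⁆ ≤ A ⊔ B := Subgroup.commutator_le_sup A B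
  have hNconj : ∀ x ∈ A ⊔ B, conjBy ⁅A, B⁆ x = ⁅A, B⁆ :=
    fun x hx => RootSet.conjBy_commutator A B hx
  have hAc : IsMulCommutative A := hS.commutative A hA
  have hAu := RankOne.left_mem_unipotent A B
  have hcase1 : ¬ ⁅A, B⁆ ≤ Subgroup.normalizer (A : Set G) := by
    intro hNA
    have hcen := RankOne.central_of_le_normalizer h hNconj hNA
    obtain ⟨b, hb, hb1⟩ := RankOne.exists_ne_one_right h
    have hbN : b ∉ Subgroup.normalizer (A : Set G) :=
      fun hbn => hb1 (RankOne.eq_one_of_mem_normalizer' h hb hbn)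
    have hne : A ≠ conjBy A b := fun e => hbN (conjBy_eq_self_iff.mp e.symm)
    have hsup : A ⊔ conjBy A b = A ⊔ B := RankOne.sup_eq_of_ne h hAu
      (RankOne.conjBy_mem_unipotent hAu (Subgroup.mem_sup_right hb)) hne
    have hle : A ⊔ conjBy A b ≤ Subgroup.centralizer (A : Set G) := by
      refine sup_le ?_ ?_
      · intro a ha
        rw [Subgroup.mem_centralizer_iff]
        intro a' ha'
        exact setLike_mul_comm ha' ha
      · intro x hx
        rw [Subgroup.mem_centralizer_iff]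
        intro a' ha'
        obtain ⟨a, ha, rfl⟩ : ∃ a ∈ A, x = b * a * b⁻¹ :=
          ⟨b⁻¹ * x * b, mem_conjBy.mp hx, by group⟩
        have hz : b * a * b⁻¹ * a⁻¹ ∈ ⁅A, B⁆ := CommCase.comm_mem' ha hb
        have hz' := hcen _ hz a' (Subgroup.mem_sup_left ha')
        have hc : a' * a = a * a' := setLike_mul_comm ha' ha
        calc a' * (b * a * b⁻¹) = a' * (b * a * b⁻¹ * a⁻¹) * a := by group
          _ = (b * a * b⁻¹ * a⁻¹) * a' * a := by rw [hz']
          _ = (b * a * b⁻¹ * a⁻¹) * (a * a') := by rw [mul_assoc, hc]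
          _ = b * a * b⁻¹ * a' := by group
    apply RankOne.not_commute h
    intro a ha b' hb'
    have h1 : b' ∈ Subgroup.centralizer (A : Set G) :=
      hle (hsup.ge (Subgroup.mem_sup_right hb'))
    exact Subgroup.mem_centralizer_iff.mp h1 a ha
  rcases hS.pair A hA _ hN with hcomm | hro | hcc
  · apply hcase1
    have h1 : ⁅A, B⁆ ≤ Subgroup.centralizer (A : Set G) := by
      rw [Subgroup.commutator_comm] at hcomm
      exact Subgroup.commutator_eq_bot_iff_le_centralizer.mp hcomm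
    exact h1.trans (Subgroup.centralizer_le_normalizer _)
  · obtain ⟨a, ha, ha1⟩ := RankOne.exists_ne_one_left h
    apply ha1
    exact RankOne.eq_one_of_mem_normalizer hro ha
      (conjBy_eq_self_iff.mp (hNconj a (Subgroup.mem_sup_left ha)))
  · by_cases hNA : ⁅A, B⁆ ≤ Subgroup.normalizer (A : Set G)
    · exact hcase1 hNA
    · obtain ⟨n, hn, hnA⟩ := SetLike.not_le_iff_exists.mp hNA
      have hne : A ≠ conjBy A n := fun e => hnA (conjBy_eq_self_iff.mp e.symm)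
      have hsup : A ⊔ conjBy A n = A ⊔ B := RankOne.sup_eq_of_ne h hAu
        (RankOne.conjBy_mem_unipotent hAu (hNle hn)) hne
      have hle : A ⊔ B ≤ A ⊔ ⁅A, B⁆ := by
        rw [← hsup]
        exact sup_le le_sup_left (conjBy_le_of_mem le_sup_left (Subgroup.mem_sup_right hn))
      obtain ⟨z, hz, hz1⟩ := RootSet.exists_ne_one hS hcc.1
      obtain ⟨a, ha, ha1⟩ := RankOne.exists_ne_one_left h
      have hzc : z ∈ Subgroup.centralizer ((A ⊔ B : Subgroup G) : Set G) := by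
        rw [Subgroup.mem_centralizer_iff]
        intro x hx
        exact (hcc.2.1 z hz x (hle hx)).symm
      obtain ⟨n', hn', hconj⟩ := CommCase.exists_conj_left hcc ha ha1 hz
      apply Cfsg.Agent.S5025.result hS hA ⟨hB, h⟩ hzc hz1 a ha ha1
      refine ⟨?_, conjBy A n', hS.conj_mem A hA n', ?_⟩
      · rw [← hconj]; exact conj_ne_one ha1
      · rw [← hconj]; exact conj_mem_conjBy ha

/-- members whose commutator subgroup is a member are in the commutator case -/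
lemma RootSet.commutatorCase_of_mem (hS : IsRootSubgroupSet S) {A B : Subgroup G} (hA : A ∈ S)
    (hB : B ∈ S) (hC : ⁅A, B⁆ ∈ S) : RootCommutatorCase S A B := by
  rcases hS.pair A hA B hB with h | h | h
  · exact absurd h (hS.ne_bot _ hC)
  · exact absurd hC (RootSet.commutator_not_mem_of_rankOne hS hA hB h)
  · exact h

/-- for members not forming a rank one pair, the commutator subgroup is central in the join -/
lemma RootSet.central_of_not_rankOne (hS : IsRootSubgroupSet S) {A B : Subgroup G} (hA : A ∈ S)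
    (hB : B ∈ S) (h : ¬ IsRankOnePair A B) : ∀ c ∈ ⁅A, B⁆, ∀ x ∈ A ⊔ B, c * x = x * c := by
  rcases hS.pair A hA B hB with h1 | h1 | h1
  · intro c hc x _
    rw [h1] at hc
    rw [Subgroup.mem_bot.mp hc]; simp
  · exact absurd h1 h
  · exact h1.2.1

/-- `P, Q` is not a rank one pair if some `z ≠ 1` centralizing both has `z p` a root element for
a non-identity `p ∈ P` -/
lemma RootSet.not_rankOne_of_central (hS : IsRootSubgroupSet S) {P Q : Subgroup G} (hP : P ∈ S)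
    (hQ : Q ∈ S) {z p : G} (hz1 : z ≠ 1) (hzP : ∀ x ∈ P, x * z = z * x)
    (hzQ : ∀ x ∈ Q, x * z = z * x) (hp : p ∈ P) (hp1 : p ≠ 1) (hzp : z * p ∈ rootElements S) :
    ¬ IsRankOnePair P Q := fun h =>
  Cfsg.Agent.S5025.result hS hP ⟨hQ, h⟩ (mem_centralizer_sup hzP hzQ) hz1 p hp hp1 hzp

end RootSetComm

section RootGraph

lemma FAdj.symm' {A B : Subgroup G} (h : FAdj S A B) : FAdj S B A :=
  ⟨h.2.1, h.1, RankOnePair_symm h.2.2⟩

lemma RootGraph.reach_symm {A B : Subgroup G} (h : Relation.ReflTransGen (FAdj S) A B) :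
    Relation.ReflTransGen (FAdj S) B A := by
  induction h with
  | refl => exact Relation.ReflTransGen.refl
  | tail _ hbc ih => exact Relation.ReflTransGen.head (FAdj.symm' hbc) ih

lemma RootGraph.componentOf_eq {A B : Subgroup G} (h : Relation.ReflTransGen (FAdj S) A B) :
    componentOf (FAdj S) S A = componentOf (FAdj S) S B := by
  ext C
  constructor
  · rintro ⟨hC, hAC⟩
    exact ⟨hC, (RootGraph.reach_symm h).trans hAC⟩
  · rintro ⟨hC, hBC⟩
    exact ⟨hC, h.trans hBC⟩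

lemma RootGraph.exists_adj_of_component {A : Subgroup G}
    (h : ∃ A' ∈ componentOf (FAdj S) S A, A' ≠ A) : ∃ C, FAdj S A C := by
  obtain ⟨A', ⟨-, hreach⟩, hne⟩ := h
  rcases Relation.ReflTransGen.cases_head hreach with h1 | ⟨C, hC, -⟩
  · exact absurd h1.symm hne
  · exact ⟨C, hC⟩

lemma RootGraph.not_isolated_of_adj {A C : Subgroup G} (h : FAdj S A C) :
    ¬ IsIsolatedIn (FAdj S) S A := fun hi => (hi.2 C).1 h

lemma isNilpotent_of_le {H K : Subgroup G} (h : H ≤ K) (hK : Group.IsNilpotent ↥K) :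
    Group.IsNilpotent ↥H := by
  have := hK
  exact Group.nilpotent_of_mulEquiv (Subgroup.subgroupOfEquivOfLe h)

end RootGraph

namespace CommCase

variable {A B : Subgroup G}

lemma inv_left (h : RootCommutatorCase S A B) {a b : G} (ha : a ∈ A) (hb : b ∈ B) :
    a⁻¹ * b * a⁻¹⁻¹ * b⁻¹ = (a * b * a⁻¹ * b⁻¹)⁻¹ := by
  have hc := h.2.1 _ (comm_mem ha hb) a (Subgroup.mem_sup_left ha)
  have hc' : (a * b * a⁻¹ * b⁻¹)⁻¹ * a = a * (a * b * a⁻¹ * b⁻¹)⁻¹ :=
    (Commute.inv_left (show Commute (a * b * a⁻¹ * b⁻¹) a from hc)).eq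
  calc a⁻¹ * b * a⁻¹⁻¹ * b⁻¹ = a⁻¹ * ((a * b * a⁻¹ * b⁻¹)⁻¹ * a) := by group
    _ = a⁻¹ * (a * (a * b * a⁻¹ * b⁻¹)⁻¹) := by rw [hc']
    _ = _ := by group

lemma inv_inv_comm (h : RootCommutatorCase S A B) {a b : G} (ha : a ∈ A) (hb : b ∈ B) :
    a⁻¹ * b⁻¹ * a⁻¹⁻¹ * b⁻¹⁻¹ = a * b * a⁻¹ * b⁻¹ := by
  rw [inv_right h (A.inv_mem ha) hb, inv_left h ha hb, inv_inv]

end CommCase

end Cfsg.Agent.Lib.Helper26
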