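import Mathlib
import Cfsg.Prelude.Def_RootSubgroups
import Cfsg.Agent.Lib.Helper26.RootComm
import Cfsg.Agent.Lib.Helper26.CommCalc

set_option autoImplicit false

namespace Cfsg.Agent.Lib.Helper26

open Cfsg
open scoped commutatorElement

variable {G H : Type*} [Group G] [Group H]

lemma map_conjBy (f : G →* H) (A : Subgroup G) (g : G) :
    (conjBy A g).map f = conjBy (A.map f) (f g) := by
  show (A.map (MulAut.conj g).toMonoidHom).map f = (A.map f).map (MulAut.conj (f g)).toMonoidHom
  rw [Subgroup.map_map, Subgroup.map_map]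
  congr 1
  ext x
  simp

lemma Cm.map (f : G →* H) {K L : Subgroup G} (h : Cm K L) : Cm (K.map f) (L.map f) := by
  rintro _ ⟨x, hx, rfl⟩ _ ⟨y, hy, rfl⟩
  rw [← map_mul, ← map_mul, h x hx y hy]

lemma Cm.conjBy {K L : Subgroup G} (h : Cm K L) (g : G) : Cm (conjBy K g) (conjBy L g) :=
  h.map_conj g

lemma rankOneCondition_map (f : G →* H) {A B : Subgroup G} (h : RankOneCondition A B)
    (hne : A.map f ≠ B.map f) : RankOneCondition (A.map f) (B.map f) := by
  rintro _ ⟨a, ha, rfl⟩ ha1
  have ha1' : a ≠ 1 := by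
    rintro rfl
    exact ha1 (map_one f)
  obtain ⟨b, hb, hb1, hconj⟩ := h a ha ha1'
  have hconj' : conjBy (A.map f) (f b)⁻¹ = conjBy (B.map f) (f a)⁻¹ := by
    rw [← map_inv, ← map_inv, ← map_conjBy, ← map_conjBy, hconj]
  refine ⟨f b, Subgroup.mem_map_of_mem f hb, ?_, hconj'⟩
  intro hfb
  apply hne
  rw [hfb, inv_one, conjBy_one] at hconj'
  exact (conjBy_of_mem (Subgroup.mem_map_of_mem f ha)).symm.trans (conjBy_eq_iff.mpr hconj')

lemma isNilpotent_map (f : G →* H) {A : Subgroup G} (h : Group.IsNilpotent A) :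
    Group.IsNilpotent (A.map f) := by
  have := h
  exact Group.nilpotent_of_surjective (f.subgroupMap A) (f.subgroupMap_surjective A)

/-- the image of a rank one pair is a rank one pair unless the two images coincide -/
lemma RankOne.map (f : G →* H) {A B : Subgroup G} (h : IsRankOnePair A B)
    (hne : A.map f ≠ B.map f) : IsRankOnePair (A.map f) (B.map f) :=
  ⟨hne, isNilpotent_map f h.nilpotent_left, isNilpotent_map f h.nilpotent_right,
    rankOneCondition_map f h.cond_left hne, rankOneCondition_map f h.cond_right (Ne.symm hne)⟩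

lemma image_comm_left (f : G →* H) (B : Subgroup G) (a : G) :
    (fun b' : H => f a * b' * (f a)⁻¹ * b'⁻¹) '' ((B.map f : Subgroup H) : Set H) =
      f '' ((fun b : G => a * b * a⁻¹ * b⁻¹) '' (B : Set G)) := by
  rw [Subgroup.coe_map, Set.image_image, Set.image_image]
  congr 1
  ext b
  simp

lemma image_comm_right (f : G →* H) (A : Subgroup G) (b : G) :
    (fun a' : H => a' * f b * a'⁻¹ * (f b)⁻¹) '' ((A.map f : Subgroup H) : Set H) =
      f '' ((fun a : G => a * b * a⁻¹ * b⁻¹) '' (A : Set G)) := by
  rw [Subgroup.coe_map, Set.image_image, Set.image_image]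
  congr 1
  ext a
  simp

/-- the image of a commutator case is a commutator case for the image family -/
lemma commutatorCase_map (f : G →* H) {S : Set (Subgroup G)} {A B : Subgroup G}
    (h : RootCommutatorCase S A B) :
    RootCommutatorCase ((fun A : Subgroup G => A.map f) '' S) (A.map f) (B.map f) := by
  have hc : Cm ⁅A, B⁆ (A ⊔ B) := fun c hc x hx => h.2.1 c hc x hx
  refine ⟨⟨⁅A, B⁆, h.1, Subgroup.map_commutator A B f⟩, ?_, ?_, ?_⟩
  · have := hc.map f
    rw [Subgroup.map_commutator, Subgroup.map_sup] at this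
    exact this
  · rintro _ ⟨a, ha, rfl⟩ ha1
    have ha1' : a ≠ 1 := by
      rintro rfl
      exact ha1 (map_one f)
    rw [image_comm_left, ← MonoidHom.map_closure, h.2.2.1 a ha ha1', Subgroup.map_commutator]
  · rintro _ ⟨b, hb, rfl⟩ hb1
    have hb1' : b ≠ 1 := by
      rintro rfl
      exact hb1 (map_one f)
    rw [image_comm_right, ← MonoidHom.map_closure, h.2.2.2 b hb hb1', Subgroup.map_commutator]

lemma RootGraph.conj_of_reach {S : Set (Subgroup G)} {A B : Subgroup G}
    (h : Relation.ReflTransGen (FAdj S) A B) : ∃ g : G, B = conjBy A g := by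
  induction h with
  | refl => exact ⟨1, (conjBy_one A).symm⟩
  | tail _ hbc ih =>
    obtain ⟨g, rfl⟩ := ih
    obtain ⟨x, -, hx⟩ := RankOne.right_mem_unipotent hbc.2.2
    exact ⟨x * g, by rw [hx, conjBy_conjBy]⟩

/-- reachability in the rank one graph is preserved by homomorphisms -/
lemma RootGraph.reach_map (f : G →* H) {S : Set (Subgroup G)} {A B : Subgroup G}
    (h : Relation.ReflTransGen (FAdj S) A B) :
    Relation.ReflTransGen (FAdj ((fun A : Subgroup G => A.map f) '' S)) (A.map f) (B.map f) := by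
  induction h with
  | refl => exact Relation.ReflTransGen.refl
  | @tail b c _ hbc ih =>
    by_cases heq : b.map f = c.map f
    · rw [← heq]; exact ih
    · exact ih.tail ⟨⟨b, hbc.1, rfl⟩, ⟨c, hbc.2.1, rfl⟩, RankOne.map f hbc.2.2 heq⟩

/-- the image of a set of abstract root subgroups under a surjective homomorphism is again one,
as soon as no member is mapped to the identity subgroup -/
lemma RootSet.map (f : G →* H) (hf : Function.Surjective f) {S : Set (Subgroup G)}
    (hS : IsRootSubgroupSet S) (hbot : ∀ A ∈ S, A.map f ≠ ⊥) :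
    IsRootSubgroupSet ((fun A : Subgroup G => A.map f) '' S) := by
  refine ⟨?_, ?_, ?_, ?_, ?_⟩
  · rintro _ ⟨A, hA, rfl⟩
    have := hS.commutative A hA
    exact ((Cm.of_comm A).map f).isMulCommutative
  · rintro _ ⟨A, hA, rfl⟩
    exact hbot A hA
  · rw [iSup_image]
    have h1 : (⨆ A ∈ S, (A.map f : Subgroup H)) = (⨆ A ∈ S, A).map f := by
      rw [Subgroup.map_iSup]
      congr 1
      ext A
      rw [Subgroup.map_iSup]
    rw [h1, hS.generates, Subgroup.map_top_of_surjective f hf]
  · rintro _ ⟨A, hA, rfl⟩ h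
    obtain ⟨g, rfl⟩ := hf h
    exact ⟨conjBy A g, hS.conj_mem A hA g, map_conjBy f A g⟩
  · rintro _ ⟨A, hA, rfl⟩ _ ⟨B, hB, rfl⟩
    rcases hS.pair A hA B hB with h | h | h
    · left
      show ⁅A.map f, B.map f⁆ = ⊥
      rw [← Subgroup.map_commutator, h, Subgroup.map_bot]
    · by_cases heq : A.map f = B.map f
      · left
        show ⁅A.map f, B.map f⁆ = ⊥
        rw [← heq]
        have := hS.commutative A hA
        exact cm_iff_commutator.mp ((Cm.of_comm A).map f)
      · right; left
        exact RankOne.map f h heq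
    · right; right
      exact commutatorCase_map f h

end Cfsg.Agent.Lib.Helper26
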