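import Mathlib
import Cfsg.Prelude.Def_RootSubgroups
import Cfsg.Agent.Lib.Helper26.RootMap
import Cfsg.Agent.S5029
import Cfsg.Agent.S5036

set_option autoImplicit false

namespace Cfsg.Agent.Lib.Helper26

open Cfsg
open scoped commutatorElement

variable {G : Type*} [Group G] {S : Set (Subgroup G)}

/-- no non-identity element of a point `T ≠ A` of a line through `A` centralizes a rank one
partner `C` of `A` -/
lemma RootLine.star (hS : IsRootSubgroupSet S) {A B C T : Subgroup G} (hA : A ∈ S) (hB : B ∈ S)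
    (hC : C ∈ S) (hro : IsRankOnePair A C) (cAB : Cm A B)
    (hpart : IsSubgroupPartition (A ⊔ B) (membersIn S (A ⊔ B))) (hT : T ∈ S) (hTle : T ≤ A ⊔ B)
    (hTA : T ≠ A) {t : G} (ht : t ∈ T) (ht1 : t ≠ 1) : ¬ (∀ c ∈ C, c * t = t * c) := by
  intro htC
  have hAni : ¬ IsIsolatedIn (FAdj S) S A := RootSet.not_isolated_of_rankOne hA hC hro
  have hAc : IsMulCommutative A := hS.commutative A hA
  have hBc : IsMulCommutative B := hS.commutative B hB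
  have cJJ : Cm (A ⊔ B) (A ⊔ B) :=
    ((Cm.of_comm A).sup_right cAB).sup_left (cAB.symm.sup_right (Cm.of_comm B))
  obtain ⟨a, ha, ha1⟩ := RootSet.exists_ne_one hS hA
  have htA : ∀ x ∈ A, x * t = t * x := fun x hx => cJJ x (Subgroup.mem_sup_left hx) t (hTle ht)
  have hzc := mem_centralizer_sup htA htC
  apply Cfsg.Agent.S5025.result hS hA ⟨hC, hro⟩ hzc ht1 a ha ha1
  have hta1 : t * a ≠ 1 := by
    intro h
    have h0 : A ⊓ T = ⊥ :=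
      (Cfsg.Agent.S5028.result hS hAni hA T hT).resolve_right (Ne.symm hTA)
    have h1 : t ∈ A ⊓ T := by
      refine ⟨?_, ht⟩
      rw [eq_inv_of_mul_eq_one_left h]; exact A.inv_mem ha
    rw [h0] at h1
    exact ht1 (Subgroup.mem_bot.mp h1)
  obtain ⟨T'', ⟨hT''S, -⟩, hmem⟩ := hpart.2.1 (t * a)
    (Subgroup.mul_mem _ (hTle ht) (Subgroup.mem_sup_left ha)) hta1
  exact ⟨hta1, T'', hT''S, hmem⟩

/-- on a line through `A`, some point other than `A` is in the commutator case with a given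
rank one partner `C` of `A` -/
lemma RootLine.exists_commutatorCase (hS : IsRootSubgroupSet S) {A B C : Subgroup G} (hA : A ∈ S)
    (hB : B ∈ S) (hBA : B ≠ A) (cAB : Cm A B)
    (hpart : IsSubgroupPartition (A ⊔ B) (membersIn S (A ⊔ B))) (hC : C ∈ S)
    (hro : IsRankOnePair A C) :
    ∃ D₀ ∈ S, D₀ ≤ A ⊔ B ∧ D₀ ≠ A ∧ RootCommutatorCase S D₀ C ∧
      ∃ b ∈ B, b ≠ 1 ∧ b ∈ A ⊔ D₀ := by
  have hAni : ¬ IsIsolatedIn (FAdj S) S A := RootSet.not_isolated_of_rankOne hA hC hro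
  have hAB0 : A ⊓ B = ⊥ := (Cfsg.Agent.S5028.result hS hAni hA B hB).resolve_right (Ne.symm hBA)
  have hcc : ∀ T ∈ S, T ≤ A ⊔ B → T ≠ A → ¬ IsRankOnePair T C → RootCommutatorCase S T C := by
    intro T hT hTle hTA hnr
    rcases hS.pair T hT C hC with h | h | h
    · exfalso
      obtain ⟨t, ht, ht1⟩ := RootSet.exists_ne_one hS hT
      apply RootLine.star hS hA hB hC hro cAB hpart hT hTle hTA ht ht1
      intro c hc
      exact ((cm_iff_commutator.mpr h) t ht c hc).symm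
    · exact absurd h hnr
    · exact h
  obtain ⟨b₀, hb₀, hb₀1⟩ := RootSet.exists_ne_one hS hB
  by_cases hBC : IsRankOnePair B C
  · obtain ⟨a, ha, ha1⟩ := RootSet.exists_ne_one hS hA
    obtain ⟨c, hc, hc1, hconj⟩ := hro.cond_left a ha ha1
    obtain ⟨b, hb, hb1, hconj'⟩ := hBC.cond_right c hc hc1
    have c1 : Cm (conjBy A c⁻¹) (conjBy B c⁻¹) := cAB.conjBy c⁻¹
    rw [hconj, ← hconj'] at c1
    have c2 : Cm C (conjBy C (a * b⁻¹)) := by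
      have := c1.conjBy a
      rwa [conjBy_conjBy_inv, conjBy_conjBy] at this
    have ht : a * b⁻¹ ∈ A ⊔ B :=
      Subgroup.mul_mem _ (Subgroup.mem_sup_left ha) (Subgroup.mem_sup_right (B.inv_mem hb))
    have ht1 : a * b⁻¹ ≠ 1 := by
      intro h
      have h1 : a ∈ A ⊓ B := by
        refine ⟨ha, ?_⟩
        rw [mul_inv_eq_one.mp h]; exact hb
      rw [hAB0] at h1
      exact ha1 (Subgroup.mem_bot.mp h1)
    obtain ⟨T, ⟨hTS, hTle⟩, htT⟩ := hpart.2.1 _ ht ht1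
    have hTA : T ≠ A := by
      rintro rfl
      have h1 : b ∈ T ⊓ B := by
        refine ⟨?_, hb⟩
        have := T.mul_mem (T.inv_mem htT) ha
        simpa using this
      rw [hAB0] at h1
      exact hb1 (Subgroup.mem_bot.mp h1)
    have hnr : ¬ IsRankOnePair T C := by
      intro h
      have hCu := RankOne.right_mem_unipotent h
      have hne : C ≠ conjBy C (a * b⁻¹) := by
        intro e
        exact ht1 (RankOne.eq_one_of_mem_normalizer h htT (conjBy_eq_self_iff.mp e.symm))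
      have hsup : C ⊔ conjBy C (a * b⁻¹) = T ⊔ C := RankOne.sup_eq_of_ne h hCu
        (RankOne.conjBy_mem_unipotent hCu (Subgroup.mem_sup_left htT)) hne
      have hCc : IsMulCommutative C := hS.commutative C hC
      have cCC : Cm C C := Cm.of_comm C
      have cJ : Cm (C ⊔ conjBy C (a * b⁻¹)) (C ⊔ conjBy C (a * b⁻¹)) :=
        (cCC.sup_right c2).sup_left (c2.symm.sup_right (cCC.conjBy _))
      rw [hsup] at cJ
      exact RankOne.not_commute h (cJ.mono le_sup_left le_sup_right)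
    refine ⟨T, hTS, hTle, hTA, hcc T hTS hTle hTA hnr, b, hb, hb1, ?_⟩
    have e : b = (a * b⁻¹)⁻¹ * a := by group
    rw [e]
    exact Subgroup.mul_mem _ (Subgroup.mem_sup_right (T.inv_mem htT)) (Subgroup.mem_sup_left ha)
  · exact ⟨B, hB, le_sup_right, hBA, hcc B hB le_sup_right hBA hBC, b₀, hb₀, hb₀1,
      Subgroup.mem_sup_right hb₀⟩

/-- if `D₀ ≠ A` is a point of a line through `A` in the commutator case with a rank one partner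
`C` of `A`, then `A` and `E = ⁅D₀, C⁆` are in the commutator case with `⁅A, E⁆ = D₀` -/
lemma RootLine.comm_eq (hS : IsRootSubgroupSet S) {A B C D₀ : Subgroup G} (hA : A ∈ S)
    (hB : B ∈ S) (cAB : Cm A B)
    (hpart : IsSubgroupPartition (A ⊔ B) (membersIn S (A ⊔ B))) (hC : C ∈ S)
    (hro : IsRankOnePair A C) (hD₀ : D₀ ∈ S) (hD₀le : D₀ ≤ A ⊔ B) (hD₀A : D₀ ≠ A)
    (hD₀ni : ¬ IsIsolatedIn (FAdj S) S D₀) (hcc : RootCommutatorCase S D₀ C) :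
    RootCommutatorCase S A ⁅D₀, C⁆ ∧ ⁅A, ⁅D₀, C⁆⁆ = D₀ := by
  have hAni : ¬ IsIsolatedIn (FAdj S) S A := RootSet.not_isolated_of_rankOne hA hC hro
  have hAc : IsMulCommutative A := hS.commutative A hA
  have hBc : IsMulCommutative B := hS.commutative B hB
  have cJJ : Cm (A ⊔ B) (A ⊔ B) :=
    ((Cm.of_comm A).sup_right cAB).sup_left (cAB.symm.sup_right (Cm.of_comm B))
  have cAD : Cm A D₀ := cJJ.mono le_sup_left hD₀le
  have hE : ⁅D₀, C⁆ ∈ S := hcc.1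
  have cED : Cm ⁅D₀, C⁆ D₀ := fun e he d hd => CommCase.commute_left hcc he hd
  have cEC : Cm ⁅D₀, C⁆ C := fun e he c hc => CommCase.commute_right hcc he hc
  have hAD0 : A ⊓ D₀ = ⊥ :=
    (Cfsg.Agent.S5028.result hS hAni hA D₀ hD₀).resolve_right (Ne.symm hD₀A)
  obtain ⟨a, ha, ha1⟩ := RootSet.exists_ne_one hS hA
  obtain ⟨d, hd, hd1⟩ := RootSet.exists_ne_one hS hD₀
  have had1 : ∀ a' ∈ A, a' ≠ 1 → ∀ d' ∈ D₀, a' * d' ≠ 1 := by
    intro a' ha' ha'1 d' hd' h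
    have h1 : a' ∈ A ⊓ D₀ := by
      refine ⟨ha', ?_⟩
      rw [eq_inv_of_mul_eq_one_left h]; exact D₀.inv_mem hd'
    rw [hAD0] at h1
    exact ha'1 (Subgroup.mem_bot.mp h1)
  have hroot : ∀ a' ∈ A, a' ≠ 1 → ∀ d' ∈ D₀, ∃ P ∈ S, a' * d' ∈ P := by
    intro a' ha' ha'1 d' hd'
    obtain ⟨P, ⟨hPS, -⟩, hmem⟩ := hpart.2.1 (a' * d')
      (Subgroup.mul_mem _ (Subgroup.mem_sup_left ha') (hD₀le hd')) (had1 a' ha' ha'1 d' hd')
    exact ⟨P, hPS, hmem⟩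
  -- not commuting
  have hnc : ⁅A, ⁅D₀, C⁆⁆ ≠ ⊥ := by
    intro h0
    have cAE : Cm A ⁅D₀, C⁆ := cm_iff_commutator.mpr h0
    obtain ⟨c, hc, hc1⟩ := RootSet.exists_ne_one hS hC
    have hle : conjBy D₀ c ≤ ⁅D₀, C⁆ ⊔ D₀ := by
      intro x hx
      obtain ⟨d', hd', rfl⟩ : ∃ d' ∈ D₀, x = c * d' * c⁻¹ :=
        ⟨c⁻¹ * x * c, mem_conjBy.mp hx, by group⟩
      have e : c * d' * c⁻¹ = (c * d' * c⁻¹ * d'⁻¹) * d' := by group
      rw [e]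
      exact Subgroup.mul_mem _ (Subgroup.mem_sup_left (CommCase.comm_mem' hd' hc))
        (Subgroup.mem_sup_right hd')
    have c1 : Cm A (conjBy D₀ c) := (cAE.sup_right cAD).mono le_rfl hle
    have c2 : Cm (conjBy A c⁻¹) D₀ := by
      have := c1.conjBy c⁻¹
      rwa [conjBy_inv_conjBy] at this
    have hAu := RankOne.left_mem_unipotent A C
    have hne : A ≠ conjBy A c⁻¹ := by
      intro e
      have h1 := RankOne.eq_one_of_mem_normalizer' hro (C.inv_mem hc)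
        (conjBy_eq_self_iff.mp e.symm)
      exact hc1 (inv_eq_one.mp h1)
    have hsup : A ⊔ conjBy A c⁻¹ = A ⊔ C := RankOne.sup_eq_of_ne hro hAu
      (RankOne.conjBy_mem_unipotent hAu (Subgroup.mem_sup_right (C.inv_mem hc))) hne
    have c3 : Cm (A ⊔ C) D₀ := by
      rw [← hsup]; exact cAD.sup_left c2
    have c4 : Cm D₀ C := (c3.mono le_sup_right le_rfl).symm
    exact hS.ne_bot _ hE (cm_iff_commutator.mp c4)
  -- not rank one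
  have hnr : ¬ IsRankOnePair A ⁅D₀, C⁆ := by
    refine RootSet.not_rankOne_of_central hS hA hE hd1 (fun x hx => cAD x hx d hd)
      (fun x hx => cED x hx d hd) ha ha1 ?_
    obtain ⟨P, hPS, hmem⟩ := hroot a ha ha1 d hd
    rw [← cAD a ha d hd]
    exact ⟨had1 a ha ha1 d hd, P, hPS, hmem⟩
  have hAE : RootCommutatorCase S A ⁅D₀, C⁆ := by
    rcases hS.pair A hA _ hE with h | h | h
    · exact absurd h hnc
    · exact absurd h hnr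
    · exact h
  refine ⟨hAE, ?_⟩
  have cFA : Cm ⁅A, ⁅D₀, C⁆⁆ A := fun f hf a' ha' => CommCase.commute_left hAE hf ha'
  have cFE : Cm ⁅A, ⁅D₀, C⁆⁆ ⁅D₀, C⁆ := fun f hf e he => CommCase.commute_right hAE hf he
  rcases Cfsg.Agent.S5028.result hS hD₀ni hD₀ _ hAE.1 with h0 | h0
  · exfalso
    obtain ⟨c, hc, hc1, hconj⟩ := hro.cond_left a ha ha1
    have hAC : conjBy A (a * c⁻¹) = C := by
      rw [← conjBy_conjBy, hconj, conjBy_conjBy_inv]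
    have c1 : Cm (conjBy D₀ (a * c⁻¹)) C := by
      have := cAD.symm.conjBy (a * c⁻¹)
      rwa [hAC] at this
    obtain ⟨ε, hε, hε_eq⟩ : ∃ ε ∈ ⁅D₀, C⁆, c⁻¹ * d * c⁻¹⁻¹ = ε * d :=
      ⟨c⁻¹ * d * c⁻¹⁻¹ * d⁻¹, CommCase.comm_mem' hd (C.inv_mem hc), by group⟩
    obtain ⟨φ, hφ, hφ_eq⟩ : ∃ φ ∈ ⁅A, ⁅D₀, C⁆⁆, a * ε * a⁻¹ = φ * ε :=
      ⟨a * ε * a⁻¹ * ε⁻¹, CommCase.comm_mem ha hε, by group⟩
    have hx : (a * c⁻¹) * d * (a * c⁻¹)⁻¹ ∈ conjBy D₀ (a * c⁻¹) := conj_mem_conjBy hd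
    have hxe : (a * c⁻¹) * d * (a * c⁻¹)⁻¹ = ε * (φ * d) := by
      have h1 : a * d * a⁻¹ = d := by rw [cAD a ha d hd]; group
      calc (a * c⁻¹) * d * (a * c⁻¹)⁻¹ = a * (c⁻¹ * d * c⁻¹⁻¹) * a⁻¹ := by group
        _ = a * (ε * d) * a⁻¹ := by rw [hε_eq]
        _ = (a * ε * a⁻¹) * (a * d * a⁻¹) := by group
        _ = (φ * ε) * d := by rw [hφ_eq, h1]
        _ = ε * (φ * d) := by rw [cFE φ hφ ε hε, mul_assoc]
    have hyC : ∀ c' ∈ C, c' * (φ * d) = (φ * d) * c' := by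
      intro c' hc'
      have h1 := c1 _ hx c' hc'
      rw [hxe] at h1
      have h2 := cEC ε hε c' hc'
      have h3 : ε * ((φ * d) * c') = ε * (c' * (φ * d)) := by
        rw [← mul_assoc, h1, ← mul_assoc, ← h2, mul_assoc]
      exact (mul_left_cancel h3).symm
    have hyA : ∀ x ∈ A, x * (φ * d) = (φ * d) * x := by
      intro x hx'
      rw [← mul_assoc, ← cFA φ hφ x hx', mul_assoc, cAD x hx' d hd, ← mul_assoc]
    have hy1 : φ * d ≠ 1 := by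
      intro h
      have h1 : d ∈ D₀ ⊓ ⁅A, ⁅D₀, C⁆⁆ := by
        refine ⟨hd, ?_⟩
        rw [eq_inv_of_mul_eq_one_right h]
        exact Subgroup.inv_mem _ hφ
      rw [h0] at h1
      exact hd1 (Subgroup.mem_bot.mp h1)
    have hzc := mem_centralizer_sup hyA hyC
    apply Cfsg.Agent.S5025.result hS hA ⟨hC, hro⟩ hzc hy1 a ha ha1
    obtain ⟨e, he', hea⟩ := CommCase.exists_conj_left hAE ha ha1 hφ
    obtain ⟨P, hPS, hmem⟩ := hroot a ha ha1 d hd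
    have hconj2 : e * (a * d) * e⁻¹ = (φ * d) * a := by
      have h1 : e * d * e⁻¹ = d := by rw [cED e he' d hd]; group
      calc e * (a * d) * e⁻¹ = (e * a * e⁻¹) * (e * d * e⁻¹) := by group
        _ = (φ * a) * d := by rw [hea, h1]
        _ = (φ * d) * a := by rw [mul_assoc, cAD a ha d hd, ← mul_assoc]
    rw [← hconj2]
    exact ⟨conj_ne_one (had1 a ha ha1 d hd), conjBy P e, hS.conj_mem P hPS e,
      conj_mem_conjBy hmem⟩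
  · exact h0.symm

lemma linePartners_symm {A B : Subgroup G} (h : B ∈ linePartners S A) (hA : A ∈ S) :
    A ∈ linePartners S B := by
  obtain ⟨⟨hB, hBA, hcomm⟩, hpart⟩ := h
  refine ⟨⟨hA, Ne.symm hBA, ?_⟩, ?_⟩
  · rw [Subgroup.commutator_comm]; exact hcomm
  · rw [sup_comm]; exact hpart

/-- on a line `A ⊔ B` through `A` (all members having rank one partners) there are a point
`D₀ ≠ A` and a member `E` with `⁅A, E⁆ = D₀`, such that the members of `S` in the line are `D₀`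
and the conjugates of `A` under `E` -/
lemma RootLine.exists_transitive (hS : IsRootSubgroupSet S)
    (hF : ∀ A ∈ S, ¬ IsIsolatedIn (FAdj S) S A) {A B C : Subgroup G} (hA : A ∈ S)
    (hB : B ∈ linePartners S A) (hC : C ∈ S) (hro : IsRankOnePair A C) :
    ∃ D₀ E : Subgroup G, D₀ ∈ S ∧ E ∈ S ∧ D₀ ≠ A ∧ A ⊔ D₀ = A ⊔ B ∧
      RootCommutatorCase S D₀ C ∧ E = ⁅D₀, C⁆ ∧
      RootCommutatorCase S A E ∧ ⁅A, E⁆ = D₀ ∧
      membersIn S (A ⊔ B) = (fun e : G => conjBy A e) '' (E : Set G) ∪ {D₀} := by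
  obtain ⟨⟨hBS, hBA, hcomm⟩, hpart⟩ := hB
  have cAB : Cm A B := cm_iff_commutator.mpr hcomm
  obtain ⟨D₀, hD₀, hD₀le, hD₀A, hcc, b, hb, hb1, hbmem⟩ :=
    RootLine.exists_commutatorCase hS hA hBS hBA cAB hpart hC hro
  obtain ⟨hAE, hAEeq⟩ := RootLine.comm_eq hS hA hBS cAB hpart hC hro hD₀ hD₀le hD₀A
    (hF D₀ hD₀) hcc
  have h29 := Cfsg.Agent.S5029.result hS (hF A hA) hA hcc.1 hAE.1
  rw [hAEeq] at h29
  have hsup : A ⊔ D₀ = A ⊔ B := by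
    apply le_antisymm (sup_le le_sup_left hD₀le)
    refine sup_le le_sup_left ?_
    obtain ⟨P, ⟨hPS, hPle⟩, hbP⟩ := h29.2.1.2.1 b hbmem hb1
    rcases Cfsg.Agent.S5028.result hS (hF B hBS) hBS P hPS with h0 | h0
    · exfalso
      have h1 : b ∈ B ⊓ P := ⟨hb, hbP⟩
      rw [h0] at h1
      exact hb1 (Subgroup.mem_bot.mp h1)
    · rw [h0]; exact hPle
  refine ⟨D₀, ⁅D₀, C⁆, hD₀, hcc.1, hD₀A, hsup, hcc, rfl, hAE, hAEeq, ?_⟩
  rw [← hsup]; exact h29.1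

/-- in the commutator case `⁅A, E⁆ = D₀`, the subgroup `E` normalizes `A ⊔ D₀` -/
lemma RootLine.le_normalizer {A E D₀ N : Subgroup G} (hAE : RootCommutatorCase S A E)
    (hAEeq : ⁅A, E⁆ = D₀) (hsup : A ⊔ D₀ = N) :
    E ≤ Subgroup.normalizer (N : Set G) := by
  have cED₀ : Cm E D₀ := by
    intro e he d hd
    have hd' : d ∈ ⁅A, E⁆ := by rw [hAEeq]; exact hd
    exact (CommCase.commute_right hAE hd' he).symm
  have key : ∀ e ∈ E, conjBy N e ≤ N := by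
    intro e he
    rw [← hsup, conjBy_sup]
    refine sup_le ?_ ?_
    · intro x hx
      obtain ⟨a, ha, rfl⟩ : ∃ a ∈ A, x = e * a * e⁻¹ := ⟨e⁻¹ * x * e, mem_conjBy.mp hx, by group⟩
      have e' : e * a * e⁻¹ = (e * a * e⁻¹ * a⁻¹) * a := by group
      rw [e']
      exact Subgroup.mul_mem _ (Subgroup.mem_sup_right (hAEeq.le (CommCase.comm_mem' ha he)))
        (Subgroup.mem_sup_left ha)
    · rw [conjBy_eq_self_iff.mpr (cED₀.le_normalizer he)]; exact le_sup_right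
  intro e he
  apply conjBy_eq_self_iff.mp
  apply le_antisymm (key e he)
  have := conjBy_mono (key e⁻¹ (E.inv_mem he)) e
  rwa [conjBy_conjBy_inv] at this

/-- in the commutator case, a non-identity element of `E` moves `A` -/
lemma RootLine.conj_ne_self (hS : IsRootSubgroupSet S) {A E : Subgroup G}
    (hAni : ¬ IsIsolatedIn (FAdj S) S A) (hA : A ∈ S) (hAE : RootCommutatorCase S A E)
    {e : G} (he : e ∈ E) (he1 : e ≠ 1) : conjBy A e ≠ A := by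
  intro h
  have h0 : A ⊓ ⁅A, E⁆ = ⊥ :=
    (Cfsg.Agent.S5028.result hS hAni hA _ hAE.1).resolve_right (CommCase.ne_left hS hAE)
  apply hS.ne_bot _ hAE.1
  rw [← hAE.2.2.2 e he he1, Subgroup.closure_eq_bot_iff]
  rintro x ⟨a, ha, rfl⟩
  have h1 : e * a⁻¹ * e⁻¹ ∈ A := h.le (conj_mem_conjBy (A.inv_mem ha))
  have h2 : a * e * a⁻¹ * e⁻¹ ∈ A ⊓ ⁅A, E⁆ := by
    refine ⟨?_, CommCase.comm_mem ha he⟩
    have e' : a * e * a⁻¹ * e⁻¹ = a * (e * a⁻¹ * e⁻¹) := by group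
    rw [e']; exact A.mul_mem ha h1
  rw [h0] at h2
  exact Subgroup.mem_bot.mp h2

lemma le_normalizer_of_conjBy_le {H N : Subgroup G} (h : ∀ g ∈ H, conjBy N g ≤ N) :
    H ≤ Subgroup.normalizer (N : Set G) := by
  intro g hg
  apply conjBy_eq_self_iff.mp
  apply le_antisymm (h g hg)
  have := conjBy_mono (h g⁻¹ (H.inv_mem hg)) g
  rwa [conjBy_conjBy_inv] at this

/-- a rank one pair `A, B` of root subgroups acting on a line `D₀ ⊔ ⁅D₀, B⁆` is special -/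
lemma RootLine.special (hS : IsRootSubgroupSet S) {A B D₀ : Subgroup G} (hA : A ∈ S) (hB : B ∈ S)
    (hD₀ : D₀ ∈ S) (hro : IsRankOnePair A B) (hcc : RootCommutatorCase S D₀ B)
    (hAE : RootCommutatorCase S A ⁅D₀, B⁆) (hAEeq : ⁅A, ⁅D₀, B⁆⁆ = D₀)
    (hD₀ni : ¬ IsIsolatedIn (FAdj S) S D₀) : IsSpecialRankOnePair A B := by
  refine ⟨hro, ?_⟩
  intro a ha ha1 b hb hb1 hconj
  have hE : ⁅D₀, B⁆ ∈ S := hcc.1
  have hDc : IsMulCommutative D₀ := hS.commutative D₀ hD₀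
  have hEc : IsMulCommutative ↥⁅D₀, B⁆ := hS.commutative _ hE
  have cED : Cm ⁅D₀, B⁆ D₀ := fun e he d hd => CommCase.commute_left hcc he hd
  have cEB : Cm ⁅D₀, B⁆ B := fun e he b' hb' => CommCase.commute_right hcc he hb'
  have cDA : Cm D₀ A := fun d hd a' ha' => CommCase.commute_left hAE (hAEeq.ge hd) ha'
  have hDne : D₀ ≠ ⊥ := hS.ne_bot D₀ hD₀
  have hEne : ⁅D₀, B⁆ ≠ ⊥ := hS.ne_bot _ hE
  have hDE0 : D₀ ⊓ ⁅D₀, B⁆ = ⊥ :=
    (Cfsg.Agent.S5028.result hS hD₀ni hD₀ _ hE).resolve_right (CommCase.ne_left hS hcc)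
  have hdecomp : ∀ v ∈ D₀ ⊔ ⁅D₀, B⁆, ∃ d ∈ D₀, ∃ e ∈ ⁅D₀, B⁆, v = d * e := by
    intro v hv
    have hv' : v ∈ ((D₀ ⊔ ⁅D₀, B⁆ : Subgroup G) : Set G) := hv
    rw [Subgroup.coe_mul_of_left_le_normalizer_right D₀ ⁅D₀, B⁆ cED.symm.le_normalizer] at hv'
    obtain ⟨d, hd, e, he, rfl⟩ := Set.mem_mul.mp hv'
    exact ⟨d, hd, e, he, rfl⟩
  have hCVA : ∀ v ∈ D₀ ⊔ ⁅D₀, B⁆, (∀ a' ∈ A, v * a' = a' * v) → v ∈ D₀ := by
    intro v hv hvA
    obtain ⟨d, hd, e, he, rfl⟩ := hdecomp v hv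
    by_cases he1 : e = 1
    · rw [he1, mul_one]; exact hd
    · exfalso
      apply hDne
      rw [← hAEeq, ← hAE.2.2.2 e he he1, Subgroup.closure_eq_bot_iff]
      rintro x ⟨a', ha', rfl⟩
      have h1 := hvA a' ha'
      have h2 := cDA d hd a' ha'
      have h3 : d * (e * a') = d * (a' * e) := by
        rw [← mul_assoc, h1, ← mul_assoc, ← h2, mul_assoc]
      have h4 := mul_left_cancel h3
      show a' * e * a'⁻¹ * e⁻¹ = 1
      rw [← h4]; group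
  have hCVB : ∀ v ∈ D₀ ⊔ ⁅D₀, B⁆, (∀ b' ∈ B, v * b' = b' * v) → v ∈ ⁅D₀, B⁆ := by
    intro v hv hvB
    obtain ⟨d, hd, e, he, rfl⟩ := hdecomp v hv
    by_cases hd1 : d = 1
    · rw [hd1, one_mul]; exact he
    · exfalso
      apply hEne
      rw [← hcc.2.2.1 d hd hd1, Subgroup.closure_eq_bot_iff]
      rintro x ⟨b', hb', rfl⟩
      have h1 := hvB b' hb'
      have h2 := cEB e he b' hb'
      have h3 : d * b' * e = b' * d * e := by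
        rw [mul_assoc, ← h2, ← mul_assoc, h1, ← mul_assoc]
      have h4 := mul_right_cancel h3
      show d * b' * d⁻¹ * b'⁻¹ = 1
      rw [h4]; group
  have hVn : A ⊔ B ≤ Subgroup.normalizer ((D₀ ⊔ ⁅D₀, B⁆ : Subgroup G) : Set G) := by
    refine sup_le (le_normalizer_of_conjBy_le ?_) (le_normalizer_of_conjBy_le ?_)
    · intro a' ha'
      rw [conjBy_sup, conjBy_eq_self_iff.mpr (cDA.symm.le_normalizer ha')]
      refine sup_le le_sup_left ?_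
      intro x hx
      obtain ⟨e, he, rfl⟩ : ∃ e ∈ ⁅D₀, B⁆, x = a' * e * a'⁻¹ :=
        ⟨a'⁻¹ * x * a', mem_conjBy.mp hx, by group⟩
      have e' : a' * e * a'⁻¹ = (a' * e * a'⁻¹ * e⁻¹) * e := by group
      rw [e']
      exact Subgroup.mul_mem _ (Subgroup.mem_sup_left (hAEeq.le (CommCase.comm_mem ha' he)))
        (Subgroup.mem_sup_right he)
    · intro b' hb'
      rw [conjBy_sup, conjBy_eq_self_iff.mpr (cEB.symm.le_normalizer hb')]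
      refine sup_le ?_ le_sup_right
      intro x hx
      obtain ⟨d, hd, rfl⟩ : ∃ d ∈ D₀, x = b' * d * b'⁻¹ :=
        ⟨b'⁻¹ * x * b', mem_conjBy.mp hx, by group⟩
      have e' : b' * d * b'⁻¹ = (b' * d * b'⁻¹ * d⁻¹) * d := by group
      rw [e']
      exact Subgroup.mul_mem _ (Subgroup.mem_sup_right (CommCase.comm_mem' hd hb'))
        (Subgroup.mem_sup_left hd)
  have hVn' : ∀ x ∈ A ⊔ B, conjBy (D₀ ⊔ ⁅D₀, B⁆) x = D₀ ⊔ ⁅D₀, B⁆ :=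
    fun x hx => conjBy_eq_self_iff.mpr (hVn hx)
  have haX : a ∈ A ⊔ B := Subgroup.mem_sup_left ha
  have hbX : b ∈ A ⊔ B := Subgroup.mem_sup_right hb
  -- the common fixed line of the two conjugates
  have hV₁ : conjBy D₀ b⁻¹ = conjBy ⁅D₀, B⁆ a⁻¹ := by
    apply le_antisymm
    · have c1 : Cm (conjBy D₀ b⁻¹) (conjBy B a⁻¹) := by
        rw [← hconj]; exact cDA.conjBy b⁻¹
      have c2 : Cm (conjBy D₀ (a * b⁻¹)) B := by
        have := c1.conjBy a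
        rwa [conjBy_conjBy, conjBy_conjBy_inv] at this
      have hle : conjBy D₀ (a * b⁻¹) ≤ D₀ ⊔ ⁅D₀, B⁆ := by
        have : conjBy D₀ (a * b⁻¹) ≤ conjBy (D₀ ⊔ ⁅D₀, B⁆) (a * b⁻¹) := conjBy_mono le_sup_left _
        rwa [hVn' _ (Subgroup.mul_mem _ haX (Subgroup.inv_mem _ hbX))] at this
      have h3 : conjBy D₀ (a * b⁻¹) ≤ ⁅D₀, B⁆ :=
        fun n hn => hCVB n (hle hn) (fun b' hb' => c2 n hn b' hb')
      have := conjBy_mono h3 a⁻¹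
      rwa [conjBy_conjBy, inv_mul_cancel_left] at this
    · have c1 : Cm (conjBy ⁅D₀, B⁆ a⁻¹) (conjBy A b⁻¹) := by
        rw [hconj]; exact cEB.conjBy a⁻¹
      have c2 : Cm (conjBy ⁅D₀, B⁆ (b * a⁻¹)) A := by
        have := c1.conjBy b
        rwa [conjBy_conjBy, conjBy_conjBy_inv] at this
      have hle : conjBy ⁅D₀, B⁆ (b * a⁻¹) ≤ D₀ ⊔ ⁅D₀, B⁆ := by
        have : conjBy ⁅D₀, B⁆ (b * a⁻¹) ≤ conjBy (D₀ ⊔ ⁅D₀, B⁆) (b * a⁻¹) :=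
          conjBy_mono le_sup_right _
        rwa [hVn' _ (Subgroup.mul_mem _ hbX (Subgroup.inv_mem _ haX))] at this
      have h3 : conjBy ⁅D₀, B⁆ (b * a⁻¹) ≤ D₀ :=
        fun n hn => hCVA n (hle hn) (fun a' ha' => c2 n hn a' ha')
      have := conjBy_mono h3 b⁻¹
      rwa [conjBy_conjBy, inv_mul_cancel_left] at this
  -- the relation (R2')
  have hR : ∀ d ∈ D₀, a * (b * d * b⁻¹ * d⁻¹) * a⁻¹ * (b * d * b⁻¹ * d⁻¹)⁻¹ = d := by
    intro d hd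
    have hmem : b⁻¹ * d * b⁻¹⁻¹ ∈ conjBy ⁅D₀, B⁆ a⁻¹ := by
      rw [← hV₁]; exact conj_mem_conjBy hd
    have he : a⁻¹⁻¹ * (b⁻¹ * d * b⁻¹⁻¹) * a⁻¹ ∈ ⁅D₀, B⁆ := mem_conjBy.mp hmem
    -- ε' = b⁻¹ d b d⁻¹ ∈ E, δ' = a⁻¹ e a e⁻¹ ∈ D₀
    obtain ⟨e, he', hedef⟩ : ∃ e ∈ ⁅D₀, B⁆, b⁻¹ * d * b⁻¹⁻¹ = a⁻¹ * e * a⁻¹⁻¹ :=
      ⟨_, he, by group⟩
    have hε : b⁻¹ * d * b⁻¹⁻¹ * d⁻¹ ∈ ⁅D₀, B⁆ := CommCase.comm_mem' hd (B.inv_mem hb)
    have hδ : a⁻¹ * e * a⁻¹⁻¹ * e⁻¹ ∈ D₀ := hAEeq.le (CommCase.comm_mem (A.inv_mem ha) he')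
    -- ε' * d = δ' * e
    have h1 : (b⁻¹ * d * b⁻¹⁻¹ * d⁻¹) * d = (a⁻¹ * e * a⁻¹⁻¹ * e⁻¹) * e := by
      have e1 : (b⁻¹ * d * b⁻¹⁻¹ * d⁻¹) * d = b⁻¹ * d * b⁻¹⁻¹ := by group
      have e2 : (a⁻¹ * e * a⁻¹⁻¹ * e⁻¹) * e = a⁻¹ * e * a⁻¹⁻¹ := by group
      rw [e1, e2, hedef]
    -- (δ')⁻¹ * d = e * (ε')⁻¹ lies in D₀ ⊓ E
    have h2 : (a⁻¹ * e * a⁻¹⁻¹ * e⁻¹)⁻¹ * d ∈ D₀ ⊓ ⁅D₀, B⁆ := by
      refine ⟨D₀.mul_mem (D₀.inv_mem hδ) hd, ?_⟩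
      have h3 : (a⁻¹ * e * a⁻¹⁻¹ * e⁻¹)⁻¹ * d = e * (b⁻¹ * d * b⁻¹⁻¹ * d⁻¹)⁻¹ := by
        have h4 : d * (b⁻¹ * d * b⁻¹⁻¹ * d⁻¹) = (b⁻¹ * d * b⁻¹⁻¹ * d⁻¹) * d :=
          (cED _ hε d hd).symm
        rw [inv_mul_eq_iff_eq_mul, ← mul_assoc, ← h1, ← h4, mul_assoc, mul_inv_cancel, mul_one]
      rw [h3]
      exact Subgroup.mul_mem _ he' (Subgroup.inv_mem _ hε)
    rw [hDE0] at h2
    have h5 : d = a⁻¹ * e * a⁻¹⁻¹ * e⁻¹ := (inv_mul_eq_one.mp (Subgroup.mem_bot.mp h2)).symm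
    have h6 : e = b⁻¹ * d * b⁻¹⁻¹ * d⁻¹ := by
      have h7 := h1
      rw [← h5] at h7
      -- ε' * d = d * e
      have h8 : d * e = e * d := (cED e he' d hd).symm
      rw [h8] at h7
      exact (mul_right_cancel h7).symm
    -- now rewrite with bi-multiplicativity
    have h9 : b⁻¹ * d * b⁻¹⁻¹ * d⁻¹ = (b * d * b⁻¹ * d⁻¹)⁻¹ := by
      have h10 := CommCase.inv_right hcc hd hb
      have e1 : b⁻¹ * d * b⁻¹⁻¹ * d⁻¹ = (d * b⁻¹ * d⁻¹ * b⁻¹⁻¹)⁻¹ := by group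
      have e2 : (b * d * b⁻¹ * d⁻¹)⁻¹ = d * b * d⁻¹ * b⁻¹ := by group
      rw [e1, h10, inv_inv, e2]
    have hεmem : b * d * b⁻¹ * d⁻¹ ∈ ⁅D₀, B⁆ := CommCase.comm_mem' hd hb
    have h11 := CommCase.inv_inv_comm hAE ha hεmem
    rw [← h11, ← h9, ← h6, ← h5]
  -- both conjugates act in the same way on ⁅D₀, B⁆
  have hcE : ∀ e ∈ ⁅D₀, B⁆, ((a⁻¹ * b⁻¹ * a)⁻¹ * (b⁻¹ * a * b)) * e =
      e * ((a⁻¹ * b⁻¹ * a)⁻¹ * (b⁻¹ * a * b)) := by
    intro e he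
    have he' : e⁻¹ ∈ ⁅D₀, B⁆ := Subgroup.inv_mem _ he
    obtain ⟨d, hd, hde⟩ := CommCase.surj_left hcc hb hb1 he'
    have hde' : b * d * b⁻¹ * d⁻¹ = e := by
      have e1 : b * d * b⁻¹ * d⁻¹ = (d * b * d⁻¹ * b⁻¹)⁻¹ := by group
      rw [e1, hde, inv_inv]
    have h1 := hR d hd
    rw [hde'] at h1
    -- a e a⁻¹ = b d b⁻¹
    have h2 : a * e * a⁻¹ = b * d * b⁻¹ := by
      have e1 : a * e * a⁻¹ = (a * e * a⁻¹ * e⁻¹) * e := by group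
      have h3 : d * e = e * d := (cED e he d hd).symm
      rw [e1, h1, h3, ← hde']; group
    have h4 : b * e = e * b := (cEB e he b hb).symm
    have h5 : a * d = d * a := (cDA d hd a ha).symm
    have hu1 : (b⁻¹ * a * b) * e * (b⁻¹ * a * b)⁻¹ = d := by
      have e1 : (b⁻¹ * a * b) * e * (b⁻¹ * a * b)⁻¹ = b⁻¹ * a * (b * e) * b⁻¹ * a⁻¹ * b := by group
      have e2 : b⁻¹ * a * (e * b) * b⁻¹ * a⁻¹ * b = b⁻¹ * (a * e * a⁻¹) * b := by group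
      rw [e1, h4, e2, h2]; group
    have hu2 : (a⁻¹ * b⁻¹ * a) * e * (a⁻¹ * b⁻¹ * a)⁻¹ = d := by
      have e1 : (a⁻¹ * b⁻¹ * a) * e * (a⁻¹ * b⁻¹ * a)⁻¹ = a⁻¹ * b⁻¹ * (a * e * a⁻¹) * b * a := by
        group
      have e2 : a⁻¹ * b⁻¹ * (b * d * b⁻¹) * b * a = a⁻¹ * (d * a) := by group
      rw [e1, h2, e2, ← h5]; group
    have h6 : (b⁻¹ * a * b) * e * (b⁻¹ * a * b)⁻¹ = (a⁻¹ * b⁻¹ * a) * e * (a⁻¹ * b⁻¹ * a)⁻¹ := by
      rw [hu1, hu2]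
    calc ((a⁻¹ * b⁻¹ * a)⁻¹ * (b⁻¹ * a * b)) * e
        = (a⁻¹ * b⁻¹ * a)⁻¹ * ((b⁻¹ * a * b) * e * (b⁻¹ * a * b)⁻¹) * (b⁻¹ * a * b) := by group
      _ = (a⁻¹ * b⁻¹ * a)⁻¹ * ((a⁻¹ * b⁻¹ * a) * e * (a⁻¹ * b⁻¹ * a)⁻¹) * (b⁻¹ * a * b) := by
          rw [h6]
      _ = _ := by group
  have hzU : (a⁻¹ * b⁻¹ * a)⁻¹ * (b⁻¹ * a * b) ∈ conjBy A b⁻¹ := by
    refine Subgroup.mul_mem _ (Subgroup.inv_mem _ ?_) ?_
    · rw [hconj]
      have := conj_mem_conjBy (g := a⁻¹) hb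
      have e1 : a⁻¹ * b * a⁻¹⁻¹ = (a⁻¹ * b⁻¹ * a)⁻¹ := by group
      rw [e1] at this
      exact inv_mem_iff.mp this
    · have := conj_mem_conjBy (g := b⁻¹) ha
      rwa [inv_inv] at this
  have cUV₁ : Cm (conjBy A b⁻¹) (conjBy D₀ b⁻¹) := cDA.symm.conjBy b⁻¹
  have hcD : ∀ d ∈ D₀, ((a⁻¹ * b⁻¹ * a)⁻¹ * (b⁻¹ * a * b)) * d =
      d * ((a⁻¹ * b⁻¹ * a)⁻¹ * (b⁻¹ * a * b)) := by
    intro d hd
    have hε : b⁻¹ * d * b⁻¹⁻¹ * d⁻¹ ∈ ⁅D₀, B⁆ := CommCase.comm_mem' hd (B.inv_mem hb)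
    have hv : b⁻¹ * d * b⁻¹⁻¹ ∈ conjBy D₀ b⁻¹ := conj_mem_conjBy hd
    have e1 : d = (b⁻¹ * d * b⁻¹⁻¹ * d⁻¹)⁻¹ * (b⁻¹ * d * b⁻¹⁻¹) := by group
    have h1 := hcE _ (Subgroup.inv_mem _ hε)
    have h2 := cUV₁ _ hzU _ hv
    rw [e1, ← mul_assoc, h1, mul_assoc, h2, ← mul_assoc]
  -- z centralizes the line, hence is central, hence trivial
  have hzcent : (a⁻¹ * b⁻¹ * a)⁻¹ * (b⁻¹ * a * b) ∈
      Subgroup.centralizer ((D₀ ⊔ ⁅D₀, B⁆ : Subgroup G) : Set G) :=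
    mem_centralizer_sup (fun x hx => (hcD x hx).symm) (fun x hx => (hcE x hx).symm)
  have hzX : (a⁻¹ * b⁻¹ * a)⁻¹ * (b⁻¹ * a * b) ∈ B ⊔ A := by
    have hA' : A ≤ B ⊔ A := le_sup_right
    have hB' : B ≤ B ⊔ A := le_sup_left
    exact Subgroup.mul_mem _ (Subgroup.inv_mem _ (Subgroup.mul_mem _ (Subgroup.mul_mem _
      (Subgroup.inv_mem _ (hA' ha)) (Subgroup.inv_mem _ (hB' hb))) (hA' ha)))
      (Subgroup.mul_mem _ (Subgroup.mul_mem _ (Subgroup.inv_mem _ (hB' hb)) (hA' ha)) (hB' hb))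
  have h36 := (Cfsg.Agent.S5036.result hS hD₀ hB hE hA hAEeq).2.2.2.2.2
  have hzc := h36 _ ⟨hzX, hzcent⟩
  have hzA : (a⁻¹ * b⁻¹ * a)⁻¹ * (b⁻¹ * a * b) ∈ A := by
    have h1 : b⁻¹⁻¹ * ((a⁻¹ * b⁻¹ * a)⁻¹ * (b⁻¹ * a * b)) * b⁻¹ ∈ A := mem_conjBy.mp hzU
    have h2 := hzc b (Subgroup.mem_sup_left hb)
    have e1 : b⁻¹⁻¹ * ((a⁻¹ * b⁻¹ * a)⁻¹ * (b⁻¹ * a * b)) * b⁻¹ =
        (b * ((a⁻¹ * b⁻¹ * a)⁻¹ * (b⁻¹ * a * b))) * b⁻¹ := by group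
    rw [e1, ← h2] at h1
    simpa using h1
  have hzN : (a⁻¹ * b⁻¹ * a)⁻¹ * (b⁻¹ * a * b) ∈ Subgroup.normalizer (B : Set G) := by
    have h1 : (a⁻¹ * b⁻¹ * a)⁻¹ * (b⁻¹ * a * b) ∈ Subgroup.centralizer (B : Set G) := by
      rw [Subgroup.mem_centralizer_iff]
      intro x hx
      exact (hzc x (Subgroup.mem_sup_left hx)).symm
    exact Subgroup.centralizer_le_normalizer _ h1
  have hz1 := RankOne.eq_one_of_mem_normalizer hro hzA hzN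
  exact (inv_mul_eq_one.mp hz1).symm

end Cfsg.Agent.Lib.Helper26
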